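import Mathlib
import Cfsg.Agent.Golay.CanonAut

/-!
Binary codes of length 24, dimension 12 and minimum weight 8.
-/

namespace Cfsg.Agent.Golay

open MulAction Finset
open scoped Pointwise

set_option linter.unusedSectionVars false

section

variable {ι : Type*} [Fintype ι] [DecidableEq ι]

theorem sub_eq_add₂ (u v : ι → ZMod 2) : u - v = u + v := funext fun _ => CharTwo.sub_eq_add _ _

theorem add_self₂ (u : ι → ZMod 2) : u + u = 0 := funext fun _ => CharTwo.add_self_eq_zero _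

theorem norm_add₂ (u v : ι → ZMod 2) : hammingNorm (u + v) + 2 * (support₂ u ∩ support₂ v).card
    = hammingNorm u + hammingNorm v := by
  rw [hammingNorm_eq_card, support₂_add]
  exact card_symmDiff_add _ _

theorem sum_norm (f : ℕ → ℕ) : ∑ u : ι → ZMod 2, f (hammingNorm u)
    = ∑ m ∈ range (Fintype.card ι + 1), (Fintype.card ι).choose m * f m := by
  exact (Fintype.sum_bijective support₂ ⟨support₂_injective, fun s => ⟨_, support₂_ind s⟩⟩ _ _
    fun _ => rfl).trans (sum_powerset_apply_card f (x := (univ : Finset ι)))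

variable (hι : Fintype.card ι = 24) {C : Submodule (ZMod 2) (ι → ZMod 2)} (hC : Nat.card C = 4096)
  (hmin : ∀ w ∈ C, w ≠ 0 → 8 ≤ hammingNorm w)

include hmin in
theorem leader_pair {u v w : ι → ZMod 2} (hu : u - w ∈ C ∧ hammingNorm u ≤ 4)
    (hv : v - w ∈ C ∧ hammingNorm v ≤ 4) (h : u ≠ v) :
    hammingNorm u = 4 ∧ hammingNorm v = 4 ∧ Disjoint (support₂ u) (support₂ v) := by
  have h1 := hmin _ (C.sub_mem hu.1 hv.1) (by rwa [sub_sub_sub_cancel_right, sub_ne_zero])
  rw [sub_sub_sub_cancel_right, sub_eq_add₂] at h1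
  have h2 := norm_add₂ u v
  rw [disjoint_iff_inter_eq_empty, ← card_eq_zero]
  omega

include hmin in
theorem card_leaders {w : ι → ZMod 2} [DecidablePred fun u => u - w ∈ C ∧ hammingNorm u ≤ 4]
    (h : ∀ u ∈ {u | u - w ∈ C ∧ hammingNorm u ≤ 4}, hammingNorm u = 4) :
    ((univ.filter fun u => u - w ∈ C ∧ hammingNorm u ≤ 4).biUnion support₂).card
      = (univ.filter fun u => u - w ∈ C ∧ hammingNorm u ≤ 4).card * 4 :=
  (card_biUnion fun _ hu _ hv e => (leader_pair hmin (mem_filter.1 hu).2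
    (mem_filter.1 hv).2 e).2.2).trans (sum_const_nat fun u hu => h u (mem_filter.1 hu).2)

include hι hC hmin

theorem coset_leaders (w : ι → ZMod 2) :
    (∃ u, {u | u - w ∈ C ∧ hammingNorm u ≤ 4} = {u} ∧ hammingNorm u ≤ 3) ∨
      ({u | u - w ∈ C ∧ hammingNorm u ≤ 4}.ncard = 6 ∧
        ∀ u ∈ {u | u - w ∈ C ∧ hammingNorm u ≤ 4}, hammingNorm u = 4) := by
  classical
  have := Fintype.ofFinite ((ι → ZMod 2) ⧸ C)
  set f : ℕ → ℕ := fun n => if n ≤ 3 then 6 else if n = 4 then 1 else 0 with hf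
  have key : ∀ w, ((∃ u, {u | u - w ∈ C ∧ hammingNorm u ≤ 4} = {u} ∧ hammingNorm u ≤ 3) ∧
      ∑ u with C.mkQ u = C.mkQ w, f (hammingNorm u) = 6) ∨
      ((∀ u ∈ {u | u - w ∈ C ∧ hammingNorm u ≤ 4}, hammingNorm u = 4) ∧
      ∑ u with C.mkQ u = C.mkQ w, f (hammingNorm u) = {u | u - w ∈ C ∧ hammingNorm u ≤ 4}.ncard ∧
      {u | u - w ∈ C ∧ hammingNorm u ≤ 4}.ncard ≤ 6) := fun w => by
    have h0 : ∑ u with C.mkQ u = C.mkQ w, f (hammingNorm u)
        = ∑ u with u - w ∈ C ∧ hammingNorm u ≤ 4, f (hammingNorm u) := by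
      rw [← filter_filter, sum_filter_of_ne (p := fun u => hammingNorm u ≤ 4) fun u _ h => by
        by_contra hc; exact h (by rw [hf]; simp only; rw [if_neg (by omega), if_neg (by omega)])]
      simp only [Submodule.mkQ_apply, Submodule.Quotient.eq]
    rw [h0]
    by_cases h : ∃ u, u - w ∈ C ∧ hammingNorm u ≤ 3
    · obtain ⟨u, h1, h2⟩ := h
      have h3 : ∀ v, v - w ∈ C ∧ hammingNorm v ≤ 4 ↔ v = u := fun v => ⟨fun hv => by_contra fun e =>
        by have := (leader_pair hmin hv ⟨h1, by omega⟩ e).2.1; omega, fun e => e ▸ ⟨h1, by omega⟩⟩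
      refine Or.inl ⟨⟨u, Set.ext h3, h2⟩, ?_⟩
      simp only [h3, filter_eq', mem_univ, if_true, sum_singleton, hf, h2]
    · have h1 : ∀ u ∈ {u | u - w ∈ C ∧ hammingNorm u ≤ 4}, hammingNorm u = 4 := fun u hu =>
        le_antisymm hu.2 (not_le.1 fun h' => h ⟨u, hu.1, h'⟩)
      have h2 : {u | u - w ∈ C ∧ hammingNorm u ≤ 4}.ncard
          = (univ.filter fun u => u - w ∈ C ∧ hammingNorm u ≤ 4).card := by
        rw [← Set.ncard_coe_finset, coe_filter_univ]
      refine Or.inr ⟨h1, ?_, ?_⟩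
      · rw [h2, card_eq_sum_ones]
        exact sum_congr rfl fun u hu => by rw [h1 u (mem_filter.1 hu).2]; rfl
      · have h3 := card_le_univ ((univ.filter fun u => u - w ∈ C ∧ hammingNorm u ≤ 4).biUnion support₂)
        rw [card_leaders hmin h1, hι] at h3
        omega
  have h1 : Fintype.card ((ι → ZMod 2) ⧸ C) = 4096 := by
    have := Submodule.card_eq_card_quotient_mul_card C
    rw [hC, Nat.card_fun, Nat.card_zmod, Nat.card_eq_fintype_card, Nat.card_eq_fintype_card,
      hι] at this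
    omega
  have h2 := (sum_eq_sum_iff_of_le (s := univ) (f := fun q => ∑ u with C.mkQ u = q, f (hammingNorm u))
    (g := fun _ => 6) fun q _ => by
      obtain ⟨w, rfl⟩ := C.mkQ_surjective q
      rcases key w with h | h
      exacts [h.2.le, h.2.1.trans_le h.2.2]).1 (by
    rw [sum_fiberwise univ C.mkQ, sum_norm, sum_const, card_univ, h1, hι, hf]
    decide +kernel) (C.mkQ w) (mem_univ _)
  exact (key w).imp And.left fun h => ⟨h.2.1.symm.trans h2, h.1⟩

theorem exists_leader (w : ι → ZMod 2) (a : ι) :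
    ∃ u, u - w ∈ C ∧ (hammingNorm u ≤ 3 ∨ hammingNorm u = 4 ∧ a ∈ support₂ u) := by
  classical
  rcases coset_leaders hι hC hmin w with ⟨u, h1, h2⟩ | ⟨h1, h2⟩
  · exact ⟨u, (h1.ge rfl).1, Or.inl h2⟩
  · rw [← coe_filter_univ, Set.ncard_coe_finset] at h1
    have h3 : (univ.filter fun u => u - w ∈ C ∧ hammingNorm u ≤ 4).biUnion support₂ = univ := by
      rw [← card_eq_iff_eq_univ, card_leaders hmin h2, h1, hι]
    obtain ⟨u, hu, h4⟩ := mem_biUnion.1 (h3.ge (mem_univ a))
    exact ⟨u, (mem_filter.1 hu).2.1, Or.inr ⟨h2 u (mem_filter.1 hu).2, h4⟩⟩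

theorem code_steiner : IsSteinerSystem 5 8 (wordsOfWeight (C : Set (ι → ZMod 2)) 8) := by
  refine ⟨fun b hb => hb.2, fun s hs => existsUnique_of_exists_of_unique ?_ fun b c hb hc => ?_⟩
  · obtain ⟨a, ha⟩ := card_pos.1 (show 0 < s.card by omega)
    have h0 : hammingNorm (ind (s.erase a)) = 4 := by rw [hammingNorm_ind, card_erase_of_mem ha, hs]
    obtain ⟨u, h1, h2⟩ := exists_leader hι hC hmin (ind (s.erase a)) a
    have h3 : u ≠ ind (s.erase a) := by
      rintro rfl
      rw [support₂_ind] at h2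
      exact h2.elim (by omega) fun h => notMem_erase a s h.2
    obtain ⟨h4, -, h5⟩ := leader_pair hmin ⟨h1, by omega⟩ ⟨by simp, h0.le⟩ h3
    have h6 := norm_add₂ u (ind (s.erase a))
    rw [disjoint_iff_inter_eq_empty.1 h5, h0, h4, card_empty] at h6
    refine ⟨_, ⟨⟨_, sub_eq_add₂ u _ ▸ h1, rfl⟩, h6⟩, ?_⟩
    rw [support₂_add, show symmDiff _ _ = _ from h5.symmDiff_eq_sup, support₂_ind, ← insert_erase ha]
    exact insert_subset (mem_union_left _ (h2.resolve_left (by omega)).2)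
      (by rw [insert_erase ha]; exact subset_union_right)
  · obtain ⟨⟨⟨u, hu, rfl⟩, h1⟩, h2⟩ := hb
    obtain ⟨⟨⟨v, hv, rfl⟩, h3⟩, h4⟩ := hc
    by_contra e
    have h5 := hmin _ (C.add_mem hu hv) fun h => e (by
      rw [← sub_eq_add₂, sub_eq_zero] at h; rw [h])
    have h6 := norm_add₂ u v
    have h7 := card_le_card (subset_inter h2 h4)
    rw [hammingNorm_eq_card u, hammingNorm_eq_card v] at h6
    omega

omit hι hC hmin in
theorem CW_induction (P : Finset GolayPt → Prop) (h0 : P ∅)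
    (hx : ∀ s t, P s → P t → P (symmDiff s t)) (ho : ∀ o ∈ octads, P o) : ∀ s ∈ CW, P s :=
  (spans_of (L := [8391797, 8394986, 8398155, 8407702, 8421811, 8455014, 8521420,
    8654232, 8919856, 9440193, 10486557, 12584506]) (C := [2283, 2364, 2711, 3524, 868, 1741,
    3482, 984, 1974, 3946, 1595, 3189]) (by decide +kernel)).induction P h0 hx
    fun m hm => ho _ (by revert m; decide +kernel)

theorem code_equiv : ∃ e : ι ≃ GolayPt, ∀ w : GolayPt → ZMod 2,
    w ∈ golayCode ↔ (fun i => w (e i)) ∈ C := by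
  obtain ⟨f, h⟩ := canon24 hι (code_steiner hι hC hmin)
  obtain ⟨e, he⟩ : ∃ e : ι ≃ GolayPt, e.toEmbedding = f :=
    ⟨Equiv.ofBijective f ⟨f.injective, fun x => (h.range x).2 ⟨mem_all x, by simp [um_zero]⟩⟩, rfl⟩
  subst he
  have h1 : ∀ w ∈ golayCode, (fun i => w (e i)) ∈ C := fun w hw => by
    rw [← ind_support₂ w]
    refine CW_induction (fun s => (fun i => ind s (e i)) ∈ C) (by rw [ind_empty]; exact C.zero_mem)
      (fun s t hs ht => by rw [ind_symmDiff]; exact C.add_mem hs ht) (fun o ho => ?_) _ ⟨w, hw, rfl⟩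
    have h2 := ((h.mem (o.map e.symm.toEmbedding)).2 ⟨(card_map _).trans ho.2, o, ho, by
      simp [um_zero, map_map]⟩).1
    rw [mem_supports_iff] at h2
    rwa [show ind (o.map e.symm.toEmbedding) = fun i => ind o (e i) by ext i; simp [ind]] at h2
  refine ⟨e, fun w => ⟨h1 w, fun hw => ?_⟩⟩
  have h2 : ∀ v w : GolayPt → ZMod 2, (fun i => v (e i)) = (fun i => w (e i)) → v = w :=
    fun v w h => funext fun x => by simpa using congrFun h (e.symm x)
  obtain ⟨v, hv⟩ := ((Nat.bijective_iff_injective_and_card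
    fun v : golayCode => (⟨_, h1 v v.2⟩ : C)).2 ⟨fun v w h => Subtype.ext (h2 _ _
      (congrArg Subtype.val h)), by rw [hC, natCard_golayCode]⟩).2 ⟨_, hw⟩
  exact h2 _ _ (congrArg Subtype.val hv) ▸ v.2

end

theorem card_of_finrank {ι : Type*} [Finite ι] {C : Submodule (ZMod 2) (ι → ZMod 2)}
    (h : Module.finrank (ZMod 2) C = 12) : Nat.card C = 4096 := by
  rw [Module.natCard_eq_pow_finrank (K := ZMod 2), h, Nat.card_zmod]; rfl

theorem golay_min : ∀ w ∈ golayCode, w ≠ 0 → 8 ≤ hammingNorm w := fun w hw h => by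
  have := card_of_mem_CW (s := support₂ w) ⟨w, hw, rfl⟩
  have h1 := hammingNorm_pos_iff.2 h
  rw [hammingNorm_eq_card] at h1 ⊢
  omega

theorem norm_comp {ι κ : Type*} [Fintype ι] [Fintype κ] (e : ι ≃ κ) (w : κ → ZMod 2) :
    hammingNorm (fun i => w (e i)) = hammingNorm w :=
  card_equiv e (by simp)

end Cfsg.Agent.Golay
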