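import Mathlib
import Cfsg.Agent.Golay.Codes

/-!
Invariant subspaces of the binary permutation module of `M24`.
-/

namespace Cfsg.Agent.Golay

open MulAction Finset
open scoped Pointwise

section

variable {W : Submodule (ZMod 2) (GolayPt → ZMod 2)}
  (hW : ∀ σ ∈ M24, ∀ w ∈ W, (fun p => w (σ.symm p)) ∈ W)
include hW

theorem inv_smul_mem {g : P24} (hg : g ∈ M24) {s : Finset GolayPt} (hs : ind s ∈ W) :
    ind (g • s) ∈ W := ind_smul g s ▸ hW g hg _ hs

theorem le_of_octad {o : Finset GolayPt} (ho : o ∈ octads) (h : ind o ∈ W) : golayCode ≤ W :=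
  fun w hw => ind_support₂ w ▸ CW_induction (fun s => ind s ∈ W) (by rw [ind_empty]; exact W.zero_mem)
    (fun s t hs ht => ind_symmDiff s t ▸ W.add_mem hs ht) (fun o' ho' => by
      obtain ⟨g, hg, rfl⟩ := octad_trans ho ho'
      exact inv_smul_mem hW hg h) _ ⟨w, hw, rfl⟩

theorem le_of_compl {o : Finset GolayPt} (ho : o ∈ octads) (h : ind oᶜ ∈ W) : golayCode ≤ W := by
  have h1 : ∀ o' ∈ octads, ind o'ᶜ ∈ W := fun o' ho' => by
    obtain ⟨g, hg, rfl⟩ := octad_trans ho ho'
    exact smul_compl' g o ▸ inv_smul_mem hW hg h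
  have h2 := W.add_mem (h1 (um 8536111) (by decide +kernel)) (h1 (um 5279) (by decide +kernel))
  rw [← ind_symmDiff, show symmDiff (um 8536111)ᶜ (um 5279)ᶜ = _ from compl_symmDiff_compl _ _,
    ← um_xor] at h2
  exact le_of_octad hW (by decide +kernel) h2

theorem le_of_dodecad {d : Finset GolayPt} (hd : d ∈ dodecads) (h : ind d ∈ W) : golayCode ≤ W := by
  have h1 : ∀ d' ∈ dodecads, ind d' ∈ W := fun d' hd' => by
    obtain ⟨g, hg, rfl⟩ := dodecad_trans hd hd'
    exact inv_smul_mem hW hg h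
  have h2 := W.add_mem (h1 (um 340831) dod0_mem) (h1 (um 28637) (by decide +kernel))
  rw [← ind_symmDiff, ← um_xor] at h2
  exact le_of_octad hW (by decide +kernel) h2

theorem inv_le_cases (h : W ≤ golayCode) :
    W = ⊥ ∨ W = Submodule.span (ZMod 2) {fun _ => (1 : ZMod 2)} ∨ W = golayCode := by
  by_cases h1 : golayCode ≤ W
  · exact Or.inr (Or.inr (le_antisymm h h1))
  have h2 : ∀ w ∈ W, w = 0 ∨ w = fun _ => 1 := fun w hw => by
    have h2 : support₂ w ∈ CW := ⟨w, h hw, rfl⟩
    rw [← ind_support₂ w] at hw ⊢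
    rcases card_of_mem_CW h2 with e | e | e | e | e
    · exact Or.inl (by rw [card_eq_zero.1 e, ind_empty])
    · exact absurd (le_of_octad hW ⟨h2, e⟩ hw) h1
    · exact absurd (le_of_dodecad hW ⟨h2, e⟩ hw) h1
    · exact absurd (le_of_compl hW ⟨CW_compl h2, by rw [card_compl, e, card_golayPt]⟩
        (by rwa [compl_compl])) h1
    · exact Or.inr (by rw [(card_eq_iff_eq_univ _).1 (e.trans card_golayPt.symm), ind_univ]; rfl)
  by_cases h3 : (fun _ => (1 : ZMod 2)) ∈ W
  · refine Or.inr (Or.inl (le_antisymm (fun w hw => ?_) ((Submodule.span_singleton_le_iff_mem _ _).2 h3)))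
    rcases h2 w hw with rfl | rfl
    exacts [Submodule.zero_mem _, Submodule.mem_span_singleton_self _]
  · exact Or.inl ((Submodule.eq_bot_iff _).2 fun w hw => (h2 w hw).resolve_right fun e => h3 (e ▸ hw))

theorem le_of_not_mem {w : GolayPt → ZMod 2} (hw : w ∈ W) (h : w ∉ golayCode) : golayCode ≤ W := by
  classical
  obtain ⟨o, ho, h1⟩ : ∃ o ∈ octads, (support₂ w ∩ oᶜ).card % 2 ≠ 0 := by
    by_contra hc
    push Not at hc
    refine h ((support₂_mem_supports_iff _ w).1 (mem_CW_of_even fun o ho => ?_))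
    have h1 := CW_induction (fun s => (support₂ w ∩ s).card % 2 = 0) (by simp)
      (fun _ _ => even_inter_symmDiff) (fun o' ho' => ?_) o ho.1
    · exact h1
    obtain ⟨g, hg, rfl⟩ := octad_trans (o := um (8536111 ^^^ 5279)) (by decide +kernel) ho'
    rw [um_xor, ← show symmDiff (um 8536111)ᶜ (um 5279)ᶜ = _ from compl_symmDiff_compl _ _,
      smul_symmDiff', smul_compl', smul_compl']
    exact even_inter_symmDiff (hc _ (smul_mem_octads hg (by decide +kernel)))
      (hc _ (smul_mem_octads hg (by decide +kernel)))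
  have := Fintype.ofFinite (fixOct o)
  have h2 : ∑ e : fixOct o, (fun p => w (e.1 p)) ∈ W := W.sum_mem fun e _ =>
    hW e.1⁻¹ (M24.inv_mem (mem_fixOct.1 e.2).1) w hw
  refine le_of_compl hW ho (by
    convert h2 using 1
    ext p
    rw [Finset.sum_apply]
    by_cases hp : p ∈ o
    · rw [sum_congr rfl fun e _ => congrArg w ((mem_fixOct.1 e.2).2 p hp), sum_const, card_univ,
        ← Nat.card_eq_fintype_card, card_fixOct ho, nsmul_eq_mul,
        show ((16 : ℕ) : ZMod 2) = 0 from rfl]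
      simp [ind, hp]
    · rw [sum_bij (t := oᶜ) (g := w) (fun (e : fixOct o) _ => e.1 p) (fun e _ => mem_compl.2 fun h => hp (by
          rwa [e.1.injective ((mem_fixOct.1 e.2).2 _ h)] at h))
        (fun e _ e' _ h => inv_mul_eq_one.1 (Subtype.ext (eq_one_of_fix_oct ho hp
          (mem_fixOct.1 (e⁻¹ * e').2).1 (mem_fixOct.1 (e⁻¹ * e').2).2
          (Equiv.Perm.inv_eq_iff_eq.2 h.symm))))
        (fun q hq => let ⟨g, hg, e⟩ := fixOct_trans ho hp (mem_compl.1 hq)
          ⟨⟨g, hg⟩, mem_univ _, e⟩) fun _ _ => rfl]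
      have h3 := dot_ind (support₂ w) oᶜ
      rw [ind_support₂, ← ZMod.natCast_mod _ 2, show _ % 2 = 1 by omega] at h3
      simp only [ind, mul_ite, mul_one, mul_zero, sum_ite_mem, univ_inter] at h3
      rw [h3]
      simp [ind, hp])

theorem even_le_of_not_mem {w : GolayPt → ZMod 2} (hw : w ∈ W) (h : w ∉ golayCode)
    {v : GolayPt → ZMod 2} (hv : ∑ p, v p = 0) : v ∈ W := by
  obtain ⟨u, h1, h2⟩ := exists_leader card_golayPt natCard_golayCode golay_min w none
  have h3 : u ∈ W := by simpa using W.add_mem (le_of_not_mem hW hw h h1) hw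
  have h4 : 0 < hammingNorm u := hammingNorm_pos_iff.2 (by
    rintro rfl
    exact h (by simpa using golayCode.neg_mem h1))
  have h5 : ∀ s : Finset GolayPt, s.card = hammingNorm u → ind s ∈ W := fun s hs => by
    obtain ⟨g, hg, rfl⟩ := trans_set (s := support₂ u) hs.symm (by
      rw [← hammingNorm_eq_card]; omega)
    exact inv_smul_mem hW hg (by rwa [ind_support₂])
  have h6 : ∀ a b : GolayPt, ind {a} + ind {b} ∈ W := fun a b => by
    obtain ⟨s, h6, h7⟩ := exists_subset_card_eq (s := ({a, b} : Finset GolayPt)ᶜ)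
      (n := hammingNorm u - 1) (by
        have := card_le_two (a := a) (b := b)
        rw [card_compl, card_golayPt]; omega)
    have h8 : ∀ c ∈ ({a, b} : Finset GolayPt), ind s + ind {c} ∈ W := fun c hc => by
      have h8 : c ∉ s := fun h => mem_compl.1 (h6 h) hc
      rw [← ind_symmDiff]
      refine h5 _ ?_
      have := card_symmDiff_add s {c}
      rw [inter_singleton_of_notMem h8, card_singleton, card_empty] at this
      omega
    have := W.add_mem (h8 a (by simp)) (h8 b (by simp))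
    rwa [add_add_add_comm, add_self₂, zero_add] at this
  have h7 : v = ∑ a, v a • (ind {a} + ind {none}) := by
    simp only [smul_add, sum_add_distrib, ← sum_smul, hv, zero_smul, add_zero]
    ext p
    simp [ind, Finset.sum_apply]
  rw [h7]
  exact W.sum_mem fun a _ => W.smul_mem _ (h6 _ _)

end

theorem exists_moved {u w : Finset GolayPt} (hu : u ∈ CW) (hw : w ∉ CW) :
    ∃ g ∈ M24, g • u = u ∧ symmDiff (g • w) w ∉ CW := by
  have key : ∀ (x : Finset GolayPt) (cs : List ℕ) (P : List (ℕ × ℕ)) (C : List ℕ),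
      In pc (St M24 x) cs → (∀ p ∈ P, p.1 ∈ cs ∧ p.2 < 12) →
      Spans (P.map fun p => get 24 TA p.2 ^^^ act (mat p.1) (get 24 TA p.2)) →
      ∀ k ∈ M24, ∃ g ∈ M24, g • k • x = k • x ∧ symmDiff (g • w) w ∉ CW := by
    intro x cs P C hin hP hs k hk
    by_contra hc
    push Not at hc
    refine hw ((smul_mem_CW_iff (M24.inv_mem hk)).1 (hs.mem_CW fun m hm => ?_))
    obtain ⟨p, hp, rfl⟩ := List.mem_map.1 hm
    obtain ⟨g, hg, e⟩ := hin _ (hP p hp).1
    have h1 := um_TA_mem _ (hP p hp).2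
    rw [← mk_um_get, ← e, act_pc, um_xor, um_mk, um_mk]
    generalize um (get 24 TA p.2) = b at h1
    have h2 := even_inter_CW ((smul_mem_CW_iff (M24.inv_mem hk)).2 (hc (k * g * k⁻¹)
      (M24.mul_mem (M24.mul_mem hk hg.1) (M24.inv_mem hk))
      (by rw [← mul_smul, inv_mul_cancel_right, mul_smul, (mem_St.1 hg).2]))) (smul_mem_CW hg.1 h1)
    rw [smul_symmDiff', ← mul_smul, mul_assoc, inv_mul_cancel_left, mul_smul] at h2
    generalize k⁻¹ • w = y at h2 ⊢
    have h3 := card_symmDiff_add (g • y ∩ g • b) (y ∩ g • b)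
    have h4 := card_symmDiff_add (y ∩ b) (y ∩ g • b)
    rw [card_smul_inter] at h3
    rw [show symmDiff (g • y) y ∩ g • b = symmDiff (g • y ∩ g • b) (y ∩ g • b) from
      inf_symmDiff_distrib_right _ _ _] at h2
    rw [show y ∩ symmDiff b (g • b) = symmDiff (y ∩ b) (y ∩ g • b) from
      inf_symmDiff_distrib_left _ _ _]
    omega
  have hO := key _ _ ([0, 1, 2, 3, 4, 6, 7, 8, 9].map (719319011418534813939340791871408581, ·) ++
    [0, 2, 4].map (720727047455400149691088846672924384, ·)) [] in_gensOct (by decide +kernel)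
    (spans_of (C := [761, 627, 3552, 717, 993, 25, 184, 985, 432, 2356, 621, 116])
      (by decide +kernel))
  have hD := key _ _ ([0, 1, 2, 3, 4, 5, 6, 7, 8, 10].map (983435072843990828779021698901151808, ·) ++
    [0, 2].map (934274275139367012522491060639310888, ·)) [] in_gensM12' (by decide +kernel)
    (spans_of (C := [1482, 479, 2639, 745, 2485, 2285, 2149, 200, 928, 129, 2939, 2482])
      (by decide +kernel))
  rcases card_of_mem_CW hu with e | e | e | e | e
  · obtain ⟨g, hg, -, h⟩ := hO 1 (one_mem _)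
    exact ⟨g, hg, by rw [card_eq_zero.1 e, smul_finset_empty], h⟩
  · obtain ⟨k, hk, rfl⟩ := octad_trans oct0_mem ⟨hu, e⟩
    exact hO k hk
  · obtain ⟨k, hk, rfl⟩ := dodecad_trans dod0_mem ⟨hu, e⟩
    exact hD k hk
  · obtain ⟨k, hk, e'⟩ := octad_trans oct0_mem (o' := uᶜ)
      ⟨CW_compl hu, by rw [card_compl, e, card_golayPt]⟩
    obtain ⟨g, hg, h1, h⟩ := hO k hk
    exact ⟨g, hg, by rwa [e', smul_compl', compl_inj_iff] at h1, h⟩
  · obtain ⟨g, hg, -, h⟩ := hO 1 (one_mem _)
    exact ⟨g, hg, by rw [(card_eq_iff_eq_univ _).1 (e.trans card_golayPt.symm), smul_finset_univ], h⟩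

end Cfsg.Agent.Golay
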