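import Mathlib
import Cfsg.Prelude.Def_SporadicCombinatorics
import Cfsg.Agent.Golay.CanonAut

/-!
Monomial automorphisms of codes; the ternary Golay code.
-/

namespace Cfsg.Agent.Golay

open MulAction Finset
open scoped Pointwise

section

variable {α F : Type*} [Field F]

theorem mono_mul (σ τ : Equiv.Perm α) (c d : α → Fˣ) (x : α → F) :
    monomialMap σ c (monomialMap τ d x) = monomialMap (σ * τ) (c * fun i => d (σ.symm i)) x := by
  ext i
  simp [monomialMap, mul_assoc, Equiv.Perm.mul_def]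

theorem mono_one (x : α → F) : monomialMap 1 1 x = x := by
  ext i
  simp [monomialMap, Equiv.Perm.one_def]

theorem mono_inv (σ : Equiv.Perm α) (c : α → Fˣ) (x : α → F) :
    monomialMap σ⁻¹ (fun i => (c (σ i))⁻¹) (monomialMap σ c x) = x := by
  ext i
  simp [monomialMap, Equiv.Perm.inv_def]

variable [Finite α] [Finite F] (C : Submodule F (α → F))

theorem mono_surj {σ : Equiv.Perm α} {c : α → Fˣ} (h : ∀ x ∈ C, monomialMap σ c x ∈ C) {y : α → F}
    (hy : y ∈ C) : ∃ x ∈ C, monomialMap σ c x = y := by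
  obtain ⟨x, e⟩ := (Finite.injective_iff_surjective (f := fun x : C =>
    (⟨monomialMap σ c x, h x x.2⟩ : C))).1 (fun x x' e => Subtype.ext (by
      rw [← mono_inv σ c x, show monomialMap σ c x = _ from congrArg Subtype.val e, mono_inv]))
    ⟨y, hy⟩
  exact ⟨x, x.2, congrArg Subtype.val e⟩

/-- the permutation parts of the monomial automorphisms -/
def MonoP : Subgroup (Equiv.Perm α) where
  carrier := {σ | ∃ c : α → Fˣ, ∀ x ∈ C, monomialMap σ c x ∈ C}
  one_mem' := ⟨1, fun x hx => by rwa [mono_one]⟩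
  mul_mem' := fun ⟨c, hc⟩ ⟨d, hd⟩ => ⟨_, fun x hx => mono_mul _ _ c d x ▸ hc _ (hd x hx)⟩
  inv_mem' := fun ⟨c, hc⟩ => ⟨_, fun y hy => by
    obtain ⟨x, hx, rfl⟩ := mono_surj C hc hy
    rwa [mono_inv]⟩

theorem card_mono : Nat.card {f : Equiv.Perm α × (α → Fˣ) // ∀ x ∈ C, monomialMap f.1 f.2 x ∈ C}
    = Nat.card (MonoP C) * Nat.card {c : α → Fˣ // ∀ x ∈ C, monomialMap 1 c x ∈ C} := by
  choose φ hφ using fun σ : MonoP C => σ.2
  have h1 : ∀ (σ : Equiv.Perm α) (c d : α → Fˣ) x,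
      monomialMap 1 d (monomialMap σ c x) = monomialMap σ (d * c) x := fun σ c d x => by
    rw [mono_mul, one_mul]; rfl
  rw [← Nat.card_prod]
  refine (Nat.card_congr (Equiv.ofBijective (fun p => ⟨(p.1.1, p.2.1 * φ p.1), fun x hx =>
    h1 _ _ _ x ▸ p.2.2 _ (hφ p.1 x hx)⟩) ⟨?_, ?_⟩)).symm
  · rintro ⟨σ, c⟩ ⟨τ, d⟩ e
    have e' := congrArg Subtype.val e
    obtain rfl : σ = τ := Subtype.ext (congrArg Prod.fst e')
    rw [show c = d from Subtype.ext (mul_right_cancel (congrArg Prod.snd e'))]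
  · rintro ⟨⟨σ, c⟩, h⟩
    refine ⟨(⟨σ, c, h⟩, ⟨c * (φ ⟨σ, c, h⟩)⁻¹, fun y hy => ?_⟩), Subtype.ext (by simp)⟩
    obtain ⟨x, hx, rfl⟩ := mono_surj C (hφ ⟨σ, c, h⟩) hy
    rw [h1, inv_mul_cancel_right]
    exact h x hx

omit [Finite α] [Finite F] in
theorem mono_add (σ : Equiv.Perm α) (c : α → Fˣ) (x y : α → F) :
    monomialMap σ c (x + y) = monomialMap σ c x + monomialMap σ c y := by
  ext i; simp [monomialMap, mul_add]

omit [Finite α] [Finite F] in
theorem mono_smul (σ : Equiv.Perm α) (c : α → Fˣ) (a : F) (x : α → F) :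
    monomialMap σ c (a • x) = a • monomialMap σ c x := by
  ext i; simp [monomialMap, mul_left_comm]

end

/-- numbering of the array positions -/
def aE : Enc ArrayPt 12 where
  enc p := 3 * p.1.val + p.2.val
  dec i := (Fin.ofNat 4 (i / 3), ((i % 3 : ℕ) : ZMod 3))
  enc_lt := by decide
  dec_enc := by decide
  enc_dec := by decide

theorem tern_iff (x : ArrayPt → ZMod 3) : x ∈ ternaryGolayCode ↔
    ∃ s : ZMod 3, (∀ i : Fin 4, ∑ r : ZMod 3, x (i, r) = -s) ∧ ∀ a b : ZMod 3,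
      ∑ i : Fin 4, x (i, a * ![0, 1, 1, 1] i + b * ![1, 0, 1, 2] i) = s :=
  exists_congr fun _ => and_congr_right' ⟨fun h a b => h _ (Submodule.mem_span_pair.2 ⟨a, b, rfl⟩),
    fun h t ht => by obtain ⟨a, b, rfl⟩ := Submodule.mem_span_pair.1 ht; exact h a b⟩

scoped instance decTern (x : ArrayPt → ZMod 3) : Decidable (x ∈ ternaryGolayCode) :=
  decidable_of_iff _ (tern_iff x).symm

/-- a basis of the ternary code -/
def tb (k : ℕ) (p : ArrayPt) : ZMod 3 := (get 2 14749199671377121909350931365093898204808193 (12 * k + aE.enc p) : ℕ)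

/-- six coordinates -/
abbrev Z6 : Type := ZMod 3 × ZMod 3 × ZMod 3 × ZMod 3 × ZMod 3 × ZMod 3

/-- the words of the ternary code -/
def tw (a : Z6) : ArrayPt → ZMod 3 := a.1 • tb 0 + a.2.1 • tb 1 + a.2.2.1 • tb 2 + a.2.2.2.1 • tb 3
  + a.2.2.2.2.1 • tb 4 + a.2.2.2.2.2 • tb 5

/-- the information positions -/
def tinfo (x : ArrayPt → ZMod 3) : Z6 := (x (0, 0), x (0, 1), x (0, 2), x (1, 0), x (1, 1), x (2, 0))

theorem tb_mem : ∀ k < 6, tb k ∈ ternaryGolayCode := by decide +kernel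

theorem tw_induction {P : (ArrayPt → ZMod 3) → Prop} (h1 : ∀ x y, P x → P y → P (x + y))
    (h2 : ∀ (a : ZMod 3) x, P x → P (a • x)) (h : ∀ k < 6, P (tb k)) (a : Z6) : P (tw a) :=
  h1 _ _ (h1 _ _ (h1 _ _ (h1 _ _ (h1 _ _ (h2 _ _ (h 0 (by norm_num))) (h2 _ _ (h 1 (by norm_num))))
    (h2 _ _ (h 2 (by norm_num)))) (h2 _ _ (h 3 (by norm_num)))) (h2 _ _ (h 4 (by norm_num))))
    (h2 _ _ (h 5 (by norm_num)))

theorem tw_mem (a : Z6) : tw a ∈ ternaryGolayCode :=
  tw_induction (fun _ _ => add_mem) (fun a _ => Submodule.smul_mem _ a) tb_mem a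

theorem tinfo_tw : ∀ a, tinfo (tw a) = a := by decide +kernel

theorem eq_tw {x : ArrayPt → ZMod 3} (hx : x ∈ ternaryGolayCode) : tw (tinfo x) = x := by
  have h1 := sub_mem (tw_mem (tinfo x)) hx
  have h2 : tinfo (tw (tinfo x) - x) = 0 :=
    show tinfo (tw (tinfo x)) - tinfo x = 0 by rw [tinfo_tw, sub_self]
  rw [← sub_eq_zero]
  generalize tw (tinfo x) - x = y at h1 h2
  have h3 : ∀ a b c d e f : ZMod 3, (fun p : ArrayPt => ![![0, 0, 0], ![0, 0, a], ![0, b, c],
      ![d, e, f]] p.1 p.2) ∈ ternaryGolayCode → (a, b, c, d, e, f) = 0 := by decide +kernel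
  simp only [tinfo, Prod.mk_eq_zero] at h2 h3
  have h4 : y = fun p : ArrayPt => ![![0, 0, 0], ![0, 0, y (1, 2)], ![0, y (2, 1), y (2, 2)],
      ![y (3, 0), y (3, 1), y (3, 2)]] p.1 p.2 := by
    ext ⟨i, r⟩
    fin_cases i <;> fin_cases r
    exacts [h2.1, h2.2.1, h2.2.2.1, h2.2.2.2.1, h2.2.2.2.2.1, rfl, h2.2.2.2.2.2, rfl, rfl, rfl, rfl,
      rfl]
  obtain ⟨e1, e2, e3, e4, e5, e6⟩ := h3 _ _ _ _ _ _ (h4 ▸ h1)
  rw [h4, e1, e2, e3, e4, e5, e6]
  decide

theorem tern_ncard (P : (ArrayPt → ZMod 3) → Prop) [DecidablePred P] :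
    {x | x ∈ ternaryGolayCode ∧ P x}.ncard = (univ.filter fun a => P (tw a)).card := by
  rw [← Set.ncard_coe_finset, ← Set.ncard_image_of_injective _
    (Function.LeftInverse.injective tinfo_tw)]
  congr 1
  ext x
  refine ⟨fun h => ⟨tinfo x, by simpa [eq_tw h.1] using h.2, eq_tw h.1⟩, ?_⟩
  rintro ⟨a, ha, rfl⟩
  exact ⟨tw_mem a, by simpa using ha⟩

theorem tern_weight {x : ArrayPt → ZMod 3} (hx : x ∈ ternaryGolayCode) (h : x ≠ 0) :
    (ternarySupport x).card = 6 ∨ (ternarySupport x).card = 9 ∨ (ternarySupport x).card = 12 := by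
  have : ∀ a, a = 0 ∨ (ternarySupport (tw a)).card = 6 ∨ (ternarySupport (tw a)).card = 9 ∨
      (ternarySupport (tw a)).card = 12 := by decide +kernel
  rw [← eq_tw hx] at h ⊢
  exact (this _).resolve_left fun e => h (by rw [e]; decide +kernel)

theorem tern_diag {c : ArrayPt → (ZMod 3)ˣ}
    (h : ∀ x ∈ ternaryGolayCode, monomialMap 1 c x ∈ ternaryGolayCode) :
    (∀ p, c p = 1) ∨ ∀ p, c p = -1 := by
  have h1 : ∀ k < 6, ∀ p q, tb k p ≠ 0 → tb k q ≠ 0 → c p = c q := fun k hk => by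
    have h1 := sub_mem (h _ (tb_mem k hk)) (tb_mem k hk)
    have h2 := add_mem (h _ (tb_mem k hk)) (tb_mem k hk)
    have h3 := (by decide +kernel : ∀ k < 6, (ternarySupport (tb k)).card = 6) k hk
    have h4 : ∀ (u : (ZMod 3)ˣ) (t : ZMod 3), (u * t - t ≠ 0 ↔ t ≠ 0 ∧ u ≠ 1) ∧
        (u * t + t ≠ 0 ↔ t ≠ 0 ∧ ¬ u ≠ 1) := by decide
    have h5 := card_filter_add_card_filter_not (s := ternarySupport (tb k)) (c · ≠ 1)
    have e1 : ternarySupport (monomialMap 1 c (tb k) - tb k)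
        = (ternarySupport (tb k)).filter (c · ≠ 1) := by
      ext p; simp only [ternarySupport, mem_filter, mem_univ, true_and]; exact (h4 _ _).1
    have e2 : ternarySupport (monomialMap 1 c (tb k) + tb k)
        = (ternarySupport (tb k)).filter (¬ c · ≠ 1) := by
      ext p; simp only [ternarySupport, mem_filter, mem_univ, true_and]; exact (h4 _ _).2
    have h6 : ∀ x ∈ ternaryGolayCode, ternarySupport x = ∅ ∨ 6 ≤ (ternarySupport x).card :=
      fun x hx => by
      by_cases e : x = 0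
      · exact Or.inl (by simp [e, ternarySupport])
      · have := tern_weight hx e; omega
    have h7 : ∀ u v : (ZMod 3)ˣ, u ≠ 1 → v ≠ 1 → u = v := by decide
    intro p q hp hq
    have hp' : p ∈ ternarySupport (tb k) := mem_filter.2 ⟨mem_univ _, hp⟩
    have hq' : q ∈ ternarySupport (tb k) := mem_filter.2 ⟨mem_univ _, hq⟩
    rcases h6 _ h1 with h8 | h8 <;> rw [e1] at h8
    · rw [filter_eq_empty_iff] at h8
      exact (not_not.1 (h8 hp')).trans (not_not.1 (h8 hq')).symm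
    · have h9 := filter_eq_empty_iff.1 (card_eq_zero.1 (show ((ternarySupport (tb k)).filter
        (¬ c · ≠ 1)).card = 0 by omega))
      exact h7 _ _ (not_not.1 (h9 hp')) (not_not.1 (h9 hq'))
  have h2 : ∀ p, ∃ k < 6, tb k p ≠ 0 ∧ (tb k (3, 0) ≠ 0 ∨ tb k (3, 2) ≠ 0) := by decide +kernel
  have h3 : ∀ p, c p = c (3, 0) := fun p => by
    obtain ⟨k, hk, h3, h4 | h4⟩ := h2 p
    exacts [h1 k hk _ _ h3 h4, (h1 k hk _ _ h3 h4).trans
      (h1 0 (by norm_num) _ _ (by decide +kernel) (by decide +kernel))]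
  simp only [h3, forall_const]
  generalize c (3, 0) = u
  revert u
  decide

/-- the supports of the words of weight six -/
abbrev THex : Set (Finset ArrayPt) :=
  {h | ∃ x ∈ ternaryGolayCode, ternarySupport x = h ∧ h.card = 6}

theorem support_mono (σ : Equiv.Perm ArrayPt) (c : ArrayPt → (ZMod 3)ˣ) (x : ArrayPt → ZMod 3) :
    ternarySupport (monomialMap σ c x) = σ • ternarySupport x := by
  ext p
  rw [← inv_smul_mem_iff]
  simp [ternarySupport, monomialMap, Equiv.Perm.inv_def]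

theorem monoP_le : MonoP ternaryGolayCode ≤ setSystemAut THex := fun σ ⟨c, hc⟩ =>
  (mem_setSystemAut_iff _ _).2 (by
    rintro _ ⟨x, hx, rfl, h⟩
    exact ⟨_, hc x hx, support_mono σ c x, by rwa [card_smul_finset]⟩)

theorem in_monoP : In (aE.pcode 4) (MonoP ternaryGolayCode) [146689022731296, 35640522938391] := by
  have key : ∀ c m : ℕ, permErr 12 4 c = 0 → (∀ k < 6, (fun p => (if m.testBit (aE.enc p) then -1
      else 1 : (ZMod 3)ˣ) * tb k (aE.dec (get 4 (invP 12 4 c) (aE.enc p)))) ∈ ternaryGolayCode) →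
      ∃ g ∈ MonoP ternaryGolayCode, aE.pcode 4 g = c := fun c m h1 h2 => by
    obtain ⟨g, rfl⟩ := aE.exists_pcode (by norm_num) h1
    refine ⟨g, ⟨fun p => if m.testBit (aE.enc p) then -1 else 1, fun x hx => ?_⟩, rfl⟩
    rw [← eq_tw hx]
    refine tw_induction (P := fun x => monomialMap g _ x ∈ ternaryGolayCode)
      (fun x y hx hy => mono_add g _ x y ▸ add_mem hx hy)
      (fun a x hx => mono_smul g _ a x ▸ Submodule.smul_mem _ a hx) (fun k hk => ?_) _
    have := h2 k hk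
    simp only [aE.invP_pcode (by norm_num : 12 ≤ 2 ^ 4), aE.get_pcode_enc (by norm_num : 12 ≤ 2 ^ 4),
      aE.dec_enc] at this
    exact this
  simp only [In, List.forall_mem_cons, List.not_mem_nil, false_imp_iff, implies_true, and_true]
  exact ⟨key _ 828 (by decide +kernel) (by decide +kernel),
    key _ 2650 (by decide +kernel) (by decide +kernel)⟩

/-- stabiliser chain -/
def chainT : List Level := [(1, 4095, 3, [[0, 1, 0, 0], [1, 1]]),
  (0, 4093, 4, [[1, 1, 0], [0, 0, 1, 0, 1, 0]]),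
  (2, 4092, 4, [[0, 1, 1, 1, 0, 1, 0, 1, 1, 0, 1], [1]]),
  (3, 4088, 3, [[0, 0, 1, 0, 1, 0, 0], [0, 0, 0, 1, 0]]), (4, 4080, 2, [])]

theorem chainT_ok : chainErr 12 4 chainT [146689022731296, 35640522938391] = 0 := by decide +kernel

theorem tern_steiner : IsSteinerSystem 5 6 THex := by
  refine ⟨fun b ⟨_, _, _, h⟩ => h, fun s hs => existsUnique_of_exists_of_unique ?_ ?_⟩
  · obtain ⟨t, h1, h2⟩ := exists_subset_card_eq (s := ternarySupport (tb 5)) (n := 5)
      (by decide +kernel)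
    obtain ⟨g, hg, e⟩ := (aE.chainSpec_of_chainErr (by norm_num) (by norm_num) in_monoP
      chainT_ok).exists_emb (aE.covers_of_coverErr (by decide) univ (by decide +kernel))
      (fun _ _ _ _ => mem_univ _) (k := 5) rfl
      ((t.equivFinOfCardEq h2).symm.toEmbedding.trans (Function.Embedding.subtype _))
      ((s.equivFinOfCardEq hs).symm.toEmbedding.trans (Function.Embedding.subtype _))
      (fun _ => mem_univ _) fun _ => mem_univ _
    refine ⟨g • ternarySupport (tb 5), (mem_setSystemAut_iff _ _).1 (monoP_le hg) _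
      ⟨_, tb_mem 5 (by norm_num), rfl, by decide +kernel⟩, fun a ha => ?_⟩
    have := e (s.equivFinOfCardEq hs ⟨a, ha⟩)
    simp only [Function.Embedding.trans_apply, Equiv.coe_toEmbedding, Equiv.symm_apply_apply,
      Function.Embedding.subtype_apply] at this
    exact this ▸ smul_mem_smul_finset (h1 (Subtype.prop _))
  · rintro _ _ ⟨⟨x, hx, rfl, h1⟩, h2⟩ ⟨⟨y, hy, rfl, h3⟩, h4⟩
    have h5 : ∀ a b : ZMod 3, ((if a + b ≠ 0 then 1 else 0) + (if a - b ≠ 0 then 1 else 0)
        + 3 * if a ≠ 0 ∧ b ≠ 0 then 1 else 0 : ℕ)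
        = 2 * (if a ≠ 0 then 1 else 0) + 2 * if b ≠ 0 then 1 else 0 := by decide
    have h6 : (ternarySupport (x + y)).card + (ternarySupport (x - y)).card
        + 3 * (ternarySupport x ∩ ternarySupport y).card
        = 2 * (ternarySupport x).card + 2 * (ternarySupport y).card := by
      simp only [ternarySupport, ← filter_and, card_filter, mul_sum, ← sum_add_distrib]
      exact sum_congr rfl fun p _ => h5 _ _
    have h7 := card_le_card (subset_inter h2 h4)
    by_cases e : x + y = 0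
    · rw [eq_neg_of_add_eq_zero_left e]; simp [ternarySupport]
    by_cases e' : x - y = 0
    · rw [sub_eq_zero.1 e']
    have := tern_weight (add_mem hx hy) e
    have := tern_weight (sub_mem hx hy) e'
    omega

theorem card_aut_tern : Nat.card (setSystemAut THex) = 95040 := by
  obtain ⟨f, h⟩ := canon12 (by decide) tern_steiner
  obtain ⟨e, -⟩ := h.aut12
  exact (Nat.card_congr e.symm.toEquiv).trans card_M12

theorem monoP_eq : MonoP ternaryGolayCode = setSystemAut THex :=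
  Subgroup.eq_of_le_of_card_ge monoP_le (card_aut_tern ▸ le_trans (by decide +kernel)
    (aE.le_card_of_chainErr (by norm_num) (by norm_num) in_monoP chainT_ok))

end Cfsg.Agent.Golay
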