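import Mathlib
import Cfsg.Agent.Golay.Mono
import Cfsg.Agent.Classical.SmallFields

/-!
The hexacode.
-/

namespace Cfsg.Agent.Golay

open Finset

variable {F : Type*} [Field F]

/-- the words of the hexacode -/
def hxw (ω : F) (a : F × F × F) : Fin 6 → F := ![a.1, a.2.1, a.2.2, a.1 + a.2.1 + a.2.2,
  ω ^ 2 * a.1 + ω * a.2.1 + a.2.2, ω * a.1 + ω ^ 2 * a.2.1 + a.2.2]

theorem two_eq_zero_of_card [Fintype F] (hF : Fintype.card F = 4) : (2 : F) = 0 := by
  have := FiniteField.cast_card_eq_zero F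
  rw [hF, show ((4 : ℕ) : F) = 2 * 2 by norm_num] at this
  exact mul_self_eq_zero.1 this

theorem hexa_iff {ω : F} (h2 : (2 : F) = 0) (hω : ω ^ 2 + ω + 1 = 0) (x : Fin 6 → F) :
    x ∈ hexacode F ω ↔ x 3 = x 0 + x 1 + x 2 ∧ x 4 = ω ^ 2 * x 0 + ω * x 1 + x 2 ∧
      x 5 = ω * x 0 + ω ^ 2 * x 1 + x 2 := by
  rw [hexacode, Submodule.mem_span_triple]
  constructor
  · rintro ⟨a, b, c, rfl⟩
    simp
    grind
  · rintro ⟨h3, h4, h5⟩
    refine ⟨ω * x 0 + ω ^ 2 * x 1, ω ^ 2 * x 0 + ω ^ 2 * x 1 + x 2, x 1 + x 2, ?_⟩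
    ext i
    fin_cases i <;> simp <;> grind

theorem hexa_ncard {ω : F} (h2 : (2 : F) = 0) (hω : ω ^ 2 + ω + 1 = 0) (P : (Fin 6 → F) → Prop) :
    {x | x ∈ hexacode F ω ∧ P x}.ncard = {a | P (hxw ω a)}.ncard := by
  rw [← Set.ncard_image_of_injective (f := hxw ω) _ fun a b e =>
    Prod.ext (congrFun e 0) (Prod.ext (congrFun e 1) (congrFun e 2))]
  congr 1
  ext x
  refine ⟨fun h => ?_, ?_⟩
  · obtain ⟨h3, h4, h5⟩ := (hexa_iff h2 hω x).1 h.1
    have : hxw ω (x 0, x 1, x 2) = x := by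
      ext i
      fin_cases i
      exacts [rfl, rfl, rfl, h3.symm, h4.symm, h5.symm]
    exact ⟨_, this.symm ▸ h.2, this⟩
  · rintro ⟨a, ha, rfl⟩
    exact ⟨(hexa_iff h2 hω _).2 ⟨rfl, rfl, rfl⟩, ha⟩

theorem hexa_weight [Fintype F] [DecidableEq F] (hF : Fintype.card F = 4) {ω : F}
    (hω : ω ^ 2 + ω + 1 = 0) (n : ℕ) :
    {x | x ∈ hexacode F ω ∧ (univ.filter fun i => x i ≠ 0).card = n}.ncard
      = if n = 0 then 1 else if n = 4 then 45 else if n = 6 then 18 else 0 := by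
  obtain ⟨e⟩ := Classical.SmallFields.equiv_F4 (F := F) (by rw [Nat.card_eq_fintype_card, hF])
  obtain ⟨w, rfl⟩ := e.surjective ω
  have hw : w ^ 2 + w + 1 = 0 := e.injective (by simpa using hω)
  have h1 : ∀ a : Classical.SmallFields.F4 × Classical.SmallFields.F4 × Classical.SmallFields.F4, ∀ i,
      hxw (e w) (e a.1, e a.2.1, e a.2.2) i = e (hxw w a i) := fun a i => by
    fin_cases i <;> simp [hxw]
  rw [hexa_ncard (two_eq_zero_of_card hF) hω, ← Set.ncard_preimage_of_injective_subset_range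
    (f := e.toEquiv.prodCongr (e.toEquiv.prodCongr e.toEquiv)) (Equiv.injective _) (by simp),
    show _ ⁻¹' _ = ((univ.filter fun a => (univ.filter fun i => hxw w a i ≠ 0).card = n :
      Finset _) : Set _) from Set.ext fun a => by
        simp only [coe_filter_univ, Set.mem_ofPred_eq, ← e.map_ne_zero_iff, ← h1]; rfl,
    Set.ncard_coe_finset]
  by_cases hn : n < 7
  · clear h1 hω
    revert n
    revert w
    decide +kernel
  · rw [if_neg (by omega), if_neg (by omega), if_neg (by omega), card_eq_zero,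
      filter_eq_empty_iff]
    intro a _ e
    have := card_le_univ (univ.filter fun i => hxw w a i ≠ 0)
    rw [e, Fintype.card_fin] at this
    omega

theorem hexa_diag {ω : F} (h2 : (2 : F) = 0) (hω : ω ^ 2 + ω + 1 = 0) {c : Fin 6 → Fˣ}
    (h : ∀ x ∈ hexacode F ω, monomialMap 1 c x ∈ hexacode F ω) (i : Fin 6) : c i = c 3 := by
  have h0 : ω ≠ 0 := by rintro rfl; simp at hω
  have h3 := fun a => (hexa_iff h2 hω _).1 (h (hxw ω a) ((hexa_iff h2 hω _).2 ⟨rfl, rfl, rfl⟩))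
  have h4 := h3 (1, 0, 0)
  have h5 := (h3 (0, 1, 0)).1
  have h6 := h3 (0, 0, 1)
  simp [monomialMap, hxw, Equiv.Perm.one_def, Units.val_inj] at h4 h5 h6
  fin_cases i
  exacts [h4.1.symm, h5.symm, h6.1.symm, rfl, h6.2.1.trans h6.1.symm, h6.2.2.trans h6.1.symm]

theorem hexa_perm [Finite F] {ω : F} (h2 : (2 : F) = 0) (hω : ω ^ 2 + ω + 1 = 0) :
    MonoP (hexacode F ω) = alternatingGroup (Fin 6) := by
  have h0 : ω ≠ 0 := by rintro rfl; simp at hω
  have h1 : alternatingGroup (Fin 6) ≤ MonoP (hexacode F ω) := by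
    rw [← inf_eq_left]
    refine Subgroup.eq_of_le_of_card_ge inf_le_left (le_trans ?_ ((finEnc 5).le_card_of_chainErr
      (w := 3) (by norm_num) (by norm_num) (cs := [181777, 55504]) ?_ (levels :=
        [(0, 63, 4, [[0, 0, 1, 1, 1, 1, 0, 0], [1]]), (1, 62, 2, [[0, 0, 1, 1, 1], [0, 1, 0]]),
        (2, 60, 2, [[0, 0, 1, 1, 0, 0]]), (3, 56, 2, [])]) (by decide +kernel)))
    · rw [nat_card_alternatingGroup, Nat.card_fin]
      decide +kernel
    · simp only [In, List.forall_mem_cons, List.not_mem_nil, false_imp_iff, implies_true, and_true]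
      refine ⟨⟨⟨![1, 2, 0, 3, 4, 5], ![2, 0, 1, 3, 4, 5], by decide, by decide⟩, ⟨
        Equiv.Perm.mem_alternatingGroup.2 (by decide), ![1, 1, 1, 1, Units.mk0 ω h0 ^ 2,
        Units.mk0 ω h0], fun x hx => ?_⟩, by decide +kernel⟩,
        ⟨![0, 2, 3, 4, 5, 1], ![0, 5, 1, 2, 3, 4], by decide, by decide⟩, ⟨
        Equiv.Perm.mem_alternatingGroup.2 (by decide), ![1, Units.mk0 ω h0 ^ 2, Units.mk0 ω h0,
        Units.mk0 ω h0 ^ 2, 1, Units.mk0 ω h0], fun x hx => ?_⟩, by decide +kernel⟩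
      all_goals
        rw [hexa_iff h2 hω] at hx ⊢
        simp [monomialMap]
        grind
  refine le_antisymm (fun g hg => by_contra fun hc => ?_) h1
  obtain ⟨c, hc⟩ : Equiv.swap 0 1 ∈ MonoP (hexacode F ω) := by
    rw [← inv_mul_cancel_right (Equiv.swap 0 1) g]
    refine mul_mem (h1 ?_) hg
    rw [Equiv.Perm.mem_alternatingGroup] at hc ⊢
    simp [(Int.units_eq_one_or _).resolve_left hc]
  have h3 := fun a => (hexa_iff h2 hω _).1 (hc (hxw ω a) ((hexa_iff h2 hω _).2 ⟨rfl, rfl, rfl⟩))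
  have h4 := h3 (1, 0, 0)
  have h6 := h3 (0, 0, 1)
  have h7 := (c 2).ne_zero
  simp [monomialMap, hxw, Equiv.swap_apply_def] at h4 h6
  grind

end Cfsg.Agent.Golay
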