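import Mathlib
import Cfsg.Agent.Mix26.Srg100
import Cfsg.Agent.S0414

/-! The automorphism group of a strongly regular graph with parameters (100, 22, 0, 6). -/

set_option autoImplicit false
open Cfsg Finset

namespace Cfsg.Agent.HsG
open Cfsg.Agent.Mix26
open scoped Pointwise

theorem srg100_ext {V W : Type*} [Fintype V] [Fintype W] [DecidableEq V] [DecidableEq W]
    {G : SimpleGraph V} {H : SimpleGraph W}
    [DecidableRel G.Adj] [DecidableRel H.Adj] (hG : G.IsSRGWith 100 22 0 6)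
    (hH : H.IsSRGWith 100 22 0 6) (o : V) (o' : W) (e : {a // G.Adj o a} ≃ {a // H.Adj o' a})
    (he : (fun b => b.image e) '' (blk G o '' (far G o : Set V)) =
      blk H o' '' (far H o' : Set W)) :
    ∃ f : G ≃g H, f o = o' ∧ ∀ a : {a // G.Adj o a}, f a = e a := by
  have ex : ∀ b ∈ far G o, ∃ b' ∈ far H o', blk H o' b' = (blk G o b).image e := fun b hb => by
    have : (blk G o b).image e ∈ blk H o' '' (far H o' : Set W) := he ▸ ⟨_, ⟨b, hb, rfl⟩, rfl⟩
    obtain ⟨b', h1, h2⟩ := this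
    exact ⟨b', h1, h2⟩
  have : Nonempty W := ⟨o'⟩
  choose! φ hφ1 hφ2 using ex
  let f : V → W := fun v => if h : G.Adj o v then (e ⟨v, h⟩).1 else if v = o then o' else φ v
  have f0 : f o = o' := by simp [f]
  have f1 : ∀ a : {a // G.Adj o a}, f a = e a := fun a => by simp [f, a.2]
  have f2 : ∀ b ∈ far G o, f b = φ b := fun b hb => by
    simp only [far, mem_filter, mem_univ, true_and] at hb
    simp [f, hb.1, hb.2]
  have tri : ∀ v, v = o ∨ (∃ a : {a // G.Adj o a}, v = a) ∨ v ∈ far G o := fun v => by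
    by_cases h1 : v = o
    · exact Or.inl h1
    by_cases h2 : G.Adj o v
    · exact Or.inr (Or.inl ⟨⟨v, h2⟩, rfl⟩)
    · exact Or.inr (Or.inr (by simp [far, h1, h2]))
  have fo : ∀ {b}, b ∈ far G o → ¬ G.Adj o b := fun hb => by simp [far] at hb; exact hb.2
  have fo' : ∀ {b}, b ∈ far H o' → ¬ H.Adj o' b := fun hb => by simp [far] at hb; exact hb.2
  have pb : ∀ (a : {a // G.Adj o a}), ∀ b ∈ far G o, H.Adj (e a) (φ b) ↔ G.Adj a b :=
    fun a b hb => by
      have h1 : e a ∈ blk H o' (φ b) ↔ a ∈ blk G o b := by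
        rw [hφ2 b hb]; simp
      simpa [blk] using h1
  have adj : ∀ v w, H.Adj (f v) (f w) ↔ G.Adj v w := by
    intro v w
    rcases tri v with rfl | ⟨a, rfl⟩ | hv <;> rcases tri w with rfl | ⟨a', rfl⟩ | hw
    · simp
    · rw [f0, f1]; simp [a'.2, (e a').2]
    · rw [f0, f2 _ hw]; simp [fo hw, fo' (hφ1 _ hw)]
    · rw [f0, f1]; simp [a.2.symm, (e a).2.symm]
    · rw [f1, f1]
      exact ⟨fun h3 => (no_tri hH (e a).2 (e a').2 h3).elim, fun h3 => (no_tri hG a.2 a'.2 h3).elim⟩
    · rw [f1, f2 _ hw, pb _ _ hw]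
    · rw [f0, f2 _ hv, H.adj_comm, G.adj_comm]; simp [fo hv, fo' (hφ1 _ hv)]
    · rw [f1, f2 _ hv, H.adj_comm, G.adj_comm, pb _ _ hv]
    · rw [f2 _ hv, f2 _ hw, adj_iff hH (hφ1 _ hv) (hφ1 _ hw), adj_iff hG hv hw, hφ2 _ hv, hφ2 _ hw,
        disjoint_image e.injective]
  have inj : Function.Injective f := by
    intro v w hvw
    by_contra hne
    have h1 : (univ.filter fun x => G.Adj v x) = cn G v w := by
      ext x
      simp only [cn, mem_filter, mem_univ, true_and, iff_self_and]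
      intro h2
      rwa [← adj, hvw, adj] at h2
    have h2 := deg22 hG v
    by_cases h3 : G.Adj v w
    · rw [← adj, hvw] at h3; exact H.irrefl h3
    · rw [h1, cn6 hG hne h3] at h2; omega
  have bij : Function.Bijective f :=
    (Fintype.bijective_iff_injective_and_card f).2 ⟨inj, by rw [hG.card, hH.card]⟩
  exact ⟨⟨Equiv.ofBijective f bij, fun {v w} => adj v w⟩, f0, f1⟩

section
variable {V : Type*} [Fintype V] [DecidableEq V] {G : SimpleGraph V} [DecidableRel G.Adj]

theorem srg100_trans (hG : G.IsSRGWith 100 22 0 6) (o o' : V) : ∃ f : G ≃g G, f o = o' := by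
  obtain ⟨e, he⟩ := Cfsg.Agent.S0410.result (card_pts hG o) (card_pts hG o') (steiner hG o)
    (steiner hG o')
  obtain ⟨f, h, -⟩ := srg100_ext hG hG o o' e he
  exact ⟨f, h⟩

/-- the permutation induced on the neighbours of a fixed vertex -/
def srgRes (o : V) (g : MulAction.stabilizer (G ≃g G) o) : Equiv.Perm {a // G.Adj o a} :=
  Equiv.Perm.subtypePerm g.1.toEquiv fun x => by
    have h : g.1 o = o := g.2
    have h2 := g.1.map_rel_iff (a := o) (b := x)
    rwa [h] at h2

omit [Fintype V] [DecidableEq V] [DecidableRel G.Adj] in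
theorem srgRes_apply (o : V) (g : MulAction.stabilizer (G ≃g G) o) (a : {a // G.Adj o a}) :
    (srgRes o g a).1 = g.1 a.1 := rfl

theorem srgRes_blk (o : V) (g : MulAction.stabilizer (G ≃g G) o) (b : V) :
    srgRes o g • blk G o b = blk G o (g.1 b) := by
  ext a
  obtain ⟨a, rfl⟩ := (srgRes o g).surjective a
  rw [← Equiv.Perm.smul_def, Finset.smul_mem_smul_finset_iff]
  simp only [blk, mem_filter, mem_univ, true_and, Equiv.Perm.smul_def, srgRes_apply]
  exact g.1.map_rel_iff.symm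

theorem srg_far_map (o : V) (g : MulAction.stabilizer (G ≃g G) o) {b : V} (hb : b ∈ far G o) :
    g.1 b ∈ far G o := by
  have h : g.1 o = o := g.2
  simp only [far, mem_filter, mem_univ, true_and] at hb ⊢
  refine ⟨fun h2 => hb.1 (g.1.injective (h2.trans h.symm)), fun h2 => hb.2 ?_⟩
  have h3 := g.1.map_rel_iff (a := o) (b := b)
  rw [h] at h3
  exact h3.1 h2

theorem srgRes_mem (o : V) (g : MulAction.stabilizer (G ≃g G) o) :
    srgRes o g ∈ setSystemAut (blk G o '' (far G o : Set V)) := by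
  rw [MulAction.mem_stabilizer_iff]
  ext s
  constructor
  · rintro ⟨_, ⟨b, hb, rfl⟩, rfl⟩
    exact ⟨g.1 b, srg_far_map o g hb, (srgRes_blk o g b).symm⟩
  · rintro ⟨b, hb, rfl⟩
    refine ⟨_, ⟨g⁻¹.1 b, srg_far_map o g⁻¹ hb, rfl⟩, ?_⟩
    change srgRes o g • _ = _
    rw [srgRes_blk]
    simp

theorem srg100_card_stab (hG : G.IsSRGWith 100 22 0 6) (o : V) :
    Nat.card (MulAction.stabilizer (G ≃g G) o) = 887040 := by
  rw [← (Cfsg.Agent.S0414.result (card_pts hG o) (steiner hG o)).1]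
  refine Nat.card_eq_of_bijective (fun g => ⟨srgRes o g, srgRes_mem o g⟩) ⟨?_, ?_⟩
  · intro g g' h
    have h1 : srgRes o g = srgRes o g' := congrArg Subtype.val h
    refine Subtype.ext (RelIso.ext fun v => ?_)
    by_cases h2 : v = o
    · rw [h2]; exact (show g.1 o = o from g.2).trans (show g'.1 o = o from g'.2).symm
    by_cases h3 : G.Adj o v
    · rw [← srgRes_apply o g ⟨v, h3⟩, ← srgRes_apply o g' ⟨v, h3⟩, h1]
    · have hv : v ∈ far G o := by simp [far, h2, h3]
      refine blk_inj hG (srg_far_map o g hv) (srg_far_map o g' hv) ?_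
      rw [← srgRes_blk, ← srgRes_blk, h1]
  · rintro ⟨e, he⟩
    rw [MulAction.mem_stabilizer_iff] at he
    obtain ⟨f, h1, h2⟩ := srg100_ext hG hG o o e he
    exact ⟨⟨f, h1⟩, Subtype.ext (Equiv.ext fun a => Subtype.ext (h2 a))⟩

theorem srg100_card_aut (hG : G.IsSRGWith 100 22 0 6) : Nat.card (G ≃g G) = 88704000 := by
  obtain ⟨o⟩ : Nonempty V := Fintype.card_pos_iff.1 (by rw [hG.card]; norm_num)
  have : MulAction.IsPretransitive (G ≃g G) V := ⟨fun a b => srg100_trans hG a b⟩
  have h1 := MulAction.index_stabilizer_of_transitive (G ≃g G) o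
  have h2 := Subgroup.card_mul_index (MulAction.stabilizer (G ≃g G) o)
  rw [h1, srg100_card_stab hG, Nat.card_eq_fintype_card, hG.card] at h2
  omega

end

end Cfsg.Agent.HsG
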