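import Mathlib
import Cfsg.Agent.Mix26.Srg100

/-! A criterion for the parameters (100, 22, 0, 6), and transport of automorphism groups. -/

set_option autoImplicit false
open Cfsg Finset

namespace Cfsg.Agent.HsG
open Cfsg.Agent.Mix26

theorem srg_of_trans {V : Type*} [Fintype V] [DecidableEq V] {G : SimpleGraph V}
    [DecidableRel G.Adj] (hc : Fintype.card V = 100)
    (hd : ∀ a, (univ.filter fun x => G.Adj a x).card = 22)
    (ht : ∀ a b c, G.Adj a b → G.Adj a c → G.Adj b c → False)
    (htr : ∀ o, ∀ b ∈ far G o, ∀ c ∈ far G o, ∃ f : G ≃g G, f o = o ∧ f b = c) :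
    G.IsSRGWith 100 22 0 6 := by
  refine ⟨hc, fun a => ?_, fun a b h => ?_, fun o b hne hn => ?_⟩
  · rw [← SimpleGraph.card_neighborFinset_eq_degree, ← hd a]
    congr 1; ext; simp
  · rw [card_cn, card_eq_zero, eq_empty_iff_forall_notMem]
    intro c hc
    simp only [cn, mem_filter, mem_univ, true_and] at hc
    exact ht a b c h hc.1 hc.2
  · rw [card_cn]
    have hb : b ∈ far G o := by simp [far, hne.symm, hn]
    have h77 : (far G o).card = 77 := by
      have h1 : far G o = univ \ insert o (univ.filter fun x => G.Adj o x) := by
        ext x; simp [far]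
      rw [h1, card_sdiff_of_subset (subset_univ _), card_insert_of_notMem (by simp), hd,
        card_univ, hc]
    have h21 : ∀ a, G.Adj o a → ((far G o).filter fun x => G.Adj a x).card = 21 := by
      intro a ha
      have h1 : ((far G o).filter fun x => G.Adj a x) =
          (univ.filter fun x => G.Adj a x).erase o := by
        ext x
        simp only [far, mem_filter, mem_univ, true_and, mem_erase]
        constructor
        · rintro ⟨⟨h1, -⟩, h2⟩; exact ⟨h1, h2⟩
        · rintro ⟨h1, h2⟩; exact ⟨⟨h1, fun h3 => ht _ _ _ ha h3 h2⟩, h2⟩
      rw [h1, card_erase_of_mem (by simpa using ha.symm), hd]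
    have hall : ∀ c ∈ far G o, (cn G o c).card = (cn G o b).card := by
      intro c hc'
      obtain ⟨f, h1, h2⟩ := htr o b hb c hc'
      symm
      refine card_bijective f f.bijective fun x => ?_
      simp only [cn, mem_filter, mem_univ, true_and]
      have h3 := f.map_rel_iff (a := o) (b := x)
      have h4 := f.map_rel_iff (a := b) (b := x)
      rw [h1] at h3
      rw [h2] at h4
      rw [h3, h4]
    have hs : ∑ c ∈ far G o, (cn G o c).card =
        ∑ a ∈ univ.filter fun x => G.Adj o x, ((far G o).filter fun x => G.Adj a x).card := by
      have : ∀ c, (cn G o c).card =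
          ((univ.filter fun x => G.Adj o x).filter fun a => G.Adj a c).card := fun c => by
        congr 1; ext x; simp [cn, G.adj_comm c x]
      simp only [this]
      generalize (univ.filter fun x => G.Adj o x) = S
      simp only [card_filter]
      exact sum_comm
    rw [sum_congr rfl hall, sum_congr rfl fun a ha => h21 a (mem_filter.1 ha).2] at hs
    simp only [sum_const, h77, hd, smul_eq_mul] at hs
    omega

/-- conjugation of graph automorphisms by a graph isomorphism -/
def autCongr {V W : Type*} {G : SimpleGraph V} {H : SimpleGraph W} (e : G ≃g H) :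
    (G ≃g G) ≃* (H ≃g H) where
  toFun f := (e.symm.trans f).trans e
  invFun f := (e.trans f).trans e.symm
  left_inv f := RelIso.ext fun x => by simp
  right_inv f := RelIso.ext fun x => by simp
  map_mul' f g := RelIso.ext fun x => by simp [RelIso.mul_apply]

end Cfsg.Agent.HsG
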