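import Mathlib
import Cfsg.Agent.Golay.HsG2
import Cfsg.Agent.S0405
import Cfsg.Agent.S1583
import Cfsg.Agent.S1584

/-! The graph on the 100 minimal vectors of the Higman–Sims configuration. -/

set_option autoImplicit false
open Cfsg Finset

namespace Cfsg.Agent.HsG
open Cfsg.Agent.Mix26 Cfsg.Agent.Leech

/-- the 100 vectors -/
def hsX : Set leechLattice :=
  {x | sqNorm (x : GolayPt → ℤ) = 32 ∧ dotInt (uu : GolayPt → ℤ) (x : GolayPt → ℤ) = 24 ∧
    dotInt (ww : GolayPt → ℤ) (x : GolayPt → ℤ) = -24}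

theorem dot_uu_ww : dotInt (uu : GolayPt → ℤ) (ww : GolayPt → ℤ) = -32 := by decide +kernel

theorem ncard_hsX : hsX.ncard = 100 := (S1583.result uu ww norm_uu norm_ww dot_uu_ww).1

instance finite_hsX : Finite hsX :=
  (Set.finite_of_ncard_ne_zero (by rw [ncard_hsX]; norm_num)).to_subtype

/-- the graph on the 100 vectors -/
def hsGr : SimpleGraph hsX where
  Adj x y := dotInt (x.1 : GolayPt → ℤ) (y.1 : GolayPt → ℤ) = 8
  symm := ⟨fun x y h => by rw [dot_comm]; exact h⟩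
  loopless := ⟨fun x h => by rw [dot_self, x.2.1] at h; omega⟩

/-- the joint stabiliser -/
abbrev hsK : Subgroup Co0 := MulAction.stabilizer Co0 uu ⊓ MulAction.stabilizer Co0 ww

theorem hs_smul_mem (g : hsK) (x : hsX) : g.1 • x.1 ∈ hsX := by
  have h1 : g.1 • uu = uu := g.2.1
  have h2 : g.1 • ww = ww := g.2.2
  refine ⟨by rw [norm_smul]; exact x.2.1, ?_, ?_⟩
  · rw [← x.2.2.1, ← dot_smul g.1 uu x.1, h1]
  · rw [← x.2.2.2, ← dot_smul g.1 ww x.1, h2]

/-- the action of the stabiliser on the graph -/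
def hsHom : hsK →* (hsGr ≃g hsGr) where
  toFun g := ⟨⟨fun x => ⟨g.1 • x.1, hs_smul_mem g x⟩, fun x => ⟨g⁻¹.1 • x.1, hs_smul_mem g⁻¹ x⟩,
    fun x => Subtype.ext (by simp), fun x => Subtype.ext (by simp)⟩, fun {x y} => by
      change dotInt _ _ = 8 ↔ dotInt _ _ = 8
      simp only [Equiv.coe_fn_mk]
      rw [dot_smul]⟩
  map_one' := RelIso.ext fun x => Subtype.ext (one_smul _ _)
  map_mul' g h := RelIso.ext fun x => Subtype.ext (mul_smul _ _ _)

theorem hsHom_apply (g : hsK) (x : hsX) : (hsHom g x).1 = g.1 • x.1 := rfl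

theorem hs_no_tri (a b c : hsX) (h1 : hsGr.Adj a b) (h2 : hsGr.Adj a c) (h3 : hsGr.Adj b c) :
    False := by
  change dotInt _ _ = 8 at h1 h2 h3
  have h4 : sqNorm ((a.1 + b.1 + c.1 - (uu - ww) : leechLattice) : GolayPt → ℤ) = 16 := by
    have ha := a.2; have hb := b.2; have hc := c.2
    obtain ⟨a1, a2, a3⟩ := ha
    obtain ⟨b1, b2, b3⟩ := hb
    obtain ⟨c1, c2, c3⟩ := hc
    rw [dot_comm] at a2 a3 b2 b3 c2 c3
    rw [AddSubgroup.coe_sub, AddSubgroup.coe_sub, AddSubgroup.coe_add, AddSubgroup.coe_add,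
      sqNorm_sub, sqNorm_sub, sqNorm_add, sqNorm_add, dot_sub_right, dot_add_left, dot_add_left,
      dot_add_left, dot_add_left, dot_add_left, norm_uu, norm_ww, dot_uu_ww, a1, a2, a3, b1, b2, b3,
      c1, c2, c3, h1, h2, h3]
    norm_num
  rcases norm_gap (a.1 + b.1 + c.1 - (uu - ww)) with h | h
  · rw [h, AddSubgroup.coe_zero, sqNorm_zero] at h4; omega
  · omega

theorem hs_srg [Fintype hsX] [DecidableRel hsGr.Adj] : hsGr.IsSRGWith 100 22 0 6 := by
  classical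
  refine srg_of_trans ?_ (fun a => ?_) hs_no_tri fun o b hb c hc => ?_
  · rw [← Nat.card_eq_fintype_card, Nat.card_coe_set_eq, ncard_hsX]
  · rw [← (S1584.result uu ww a.1 norm_uu norm_ww dot_uu_ww a.2).1, ← Set.ncard_coe_finset,
      ← Set.ncard_image_of_injective _ Subtype.val_injective]
    congr 1
    ext y
    constructor
    · rintro ⟨x, hx, rfl⟩
      exact ⟨x.2, (mem_filter.1 hx).2⟩
    · rintro ⟨h1, h2⟩
      exact ⟨⟨y, h1⟩, mem_filter.2 ⟨mem_univ _, h2⟩, rfl⟩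
  · simp only [far, mem_filter, mem_univ, true_and] at hb hc
    obtain ⟨g, h1, h2, h3, h4⟩ := (S1584.result uu ww o.1 norm_uu norm_ww dot_uu_ww o.2).2.2
      b.1 b.2 c.1 c.2 (fun h => hb.1 (Subtype.ext h)) (fun h => hc.1 (Subtype.ext h))
      ⟨fun h => (hb.2 h).elim, fun h => (hc.2 h).elim⟩
    exact ⟨hsHom ⟨g, h1, h2⟩, Subtype.ext h3, Subtype.ext h4⟩

theorem hsK_isHS : IsHS hsK := S0405.result uu ww norm_uu norm_ww dot_uu_ww

theorem hsHom_inj : Function.Injective hsHom := by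
  have := hsK_isHS.1
  rw [← MonoidHom.ker_eq_bot_iff]
  refine (hsHom.normal_ker.eq_bot_or_eq_top).resolve_right fun h => ?_
  obtain ⟨x, hx, y, hy, hxy⟩ := (Set.one_lt_ncard (s := hsX)).1 (by rw [ncard_hsX]; norm_num)
  obtain ⟨g, h1, h2, h3⟩ := (S1583.result uu ww norm_uu norm_ww dot_uu_ww).2 x hx y hy
  have h4 : (⟨g, h1, h2⟩ : hsK) ∈ hsHom.ker := h ▸ Subgroup.mem_top _
  have h5 := hsHom_apply ⟨g, h1, h2⟩ ⟨x, hx⟩
  rw [MonoidHom.mem_ker.1 h4] at h5
  exact hxy (h5.trans h3)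

theorem srg100_hs {V : Type*} [Fintype V] {G : SimpleGraph V} [DecidableRel G.Adj]
    (hG : G.IsSRGWith 100 22 0 6) : ∃ H : Subgroup (G ≃g G), IsHS H := by
  classical
  have := Fintype.ofFinite hsX
  obtain ⟨e⟩ := srg100_iso hs_srg hG
  have hi : Function.Injective ((autCongr e).toMonoidHom.comp hsHom) :=
    (autCongr e).injective.comp hsHom_inj
  have e' := MonoidHom.ofInjective hi
  have := hsK_isHS.1
  exact ⟨_, e'.symm.isSimpleGroup, (Nat.card_congr e'.toEquiv).symm.trans hsK_isHS.2⟩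

end Cfsg.Agent.HsG
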