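import Mathlib
import Cfsg.Agent.Golay.Index
import Cfsg.Agent.Golay.Hom

/-! The subgroups `23:11` of `M23` and `PSL(2,23)` of `M24`. -/

set_option autoImplicit false

namespace Cfsg.Agent.Golay

open MulAction Finset
open scoped Pointwise

/-- codes of `t ↦ t + 1` and `t ↦ 2 t` -/
def cAB : List ℕ := [956302485175575353788796878166559809, 983435072843990828779021698901151808]

/-- the involutions fixing the standard octad, with chains -/
def cert15 : List (ℕ × List Level) := [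
  (979121071158219704299181131031480352,[(0,8388607,4,[[0,0,0,2,1,0,0,0,2,2],[0,0,0,2,1,0,1,0,2]]),(1,8388606,4,[[0,0,0,1,0,0],[1,1]]),(2,8388604,4,[[1,1,0],[0,1,0,0,0,0,1]]),(3,8388600,4,[[1,1,1,0,0,1,1],[0,1,0,1,1,1,0],[0,1,0,0,1]]),(5,147488,1,[[1,2],[2,2,0,1],[2,0],[0,2,2,0]]),(4,8241104,1,[])]),
  (976448692869377735270425038196672544,[(0,8388607,4,[[0,1,2,1,1,0,0],[0,1,2,1,1,2,1,0]]),(1,8388606,4,[[1,0,1,1,1,0],[0,1,1,0,1]]),(2,8388604,4,[[0,1,0,0,1,1,1,0,1],[1,1,0,0,0,0,1,0]]),(3,8388600,4,[[0,0,1,0,1,0,0,1,0],[0,0,1,0,0,1],[1,0,0,1,0,1,0]]),(5,147488,2,[[1],[1,0],[2,2,1,2,1],[2,2,0,2]]),(4,8241104,1,[])]),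
  (971592882964418941354553515258775584,[(0,8388607,4,[[0,1,2,1,1,0],[0,1,2,1,0,0]]),(1,8388606,4,[[0,0,1,0,1,1,0,1,1,0],[1,1]]),(2,8388604,4,[[1,1,0,1,1,0,1],[1,1,1,0]]),(3,8388600,4,[[0,0,0,1,1,0],[0,0,1,0,0,1,0,1],[0,1,1,1,1]]),(5,147488,1,[[0,0,1],[1,2,1],[0,0,2],[0,1,0]]),(4,8241104,1,[])]),
  (983548720921252936276249910206105632,[(0,8388607,4,[[1,2,1],[0,0,0,0,2,1,0,2,0,2]]),(1,8388606,4,[[1,1,0,1,1,0],[1,0,0,1,0]]),(2,8388604,5,[[1,0,0,1,1,1,0],[0,0,1,0,1,1,0,0]]),(3,8388600,4,[[0,1,0,0,1,1],[0,0,1,1,0,0,1],[0,0,0,0,1,0]]),(5,147488,1,[[2,2,1],[0,1,0],[0,2,1],[0,0,1]]),(4,8241104,1,[])]),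
  (975346028712660580592452217730074656,[(0,8388607,4,[[0,0,0,2,1,0,0,1],[1]]),(1,8388606,4,[[0,0,0,0],[1,0,1,1,1,0]]),(2,8388604,6,[[1,1,1,0,1,1,0,1,1,0,0,0,1],[1,1,0,1,0,1,1,0,1,1,1,0,1,0,0,1]]),(3,8388600,4,[[0,1,1,1,0,1],[1,0,1,0],[0,1,0,0,0,1,1]]),(5,147488,1,[[0,0,1,0,1],[1],[0,2,2,2,2],[2,0]]),(4,8241104,1,[])]),
  (965128854020860192151391391390468128,[(0,8388607,4,[[1,2,2],[0,2,0,1,0,0,0]]),(1,8388606,4,[[0,0,0,0,1],[1,0,0,0]]),(2,8388604,4,[[0,1,0,1,1,0,1],[1,1,1,1,0,1,1,0]]),(3,8388600,4,[[1,1,0,0,1,1,0],[0,1,0,0,0,1],[1,1,0,1,0,0,1]]),(5,147488,1,[[0,2],[0,1,0],[2,1],[0,0,1]]),(4,8241104,1,[])]),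
  (967812279691448225500382947153381408,[(0,8388607,4,[[2],[1]]),(1,8388606,7,[[1,0,1,0,1,1,1,1],[1,1,0,1,1,1,0,1,1]]),(2,8388604,4,[[0,1,0,0,1,0,0],[1,0,0,1,1,0]]),(3,8388600,4,[[0,0,1,0,1,1,0,0],[0,1,0,1,0,0,0],[1,1,0]]),(5,147488,1,[[1,2],[0,1,1,0],[0,1],[1,0,2,1]]),(4,8241104,1,[])]),
  (981818691054096003685363657089320992,[(0,8388607,4,[[1,2],[1,1]]),(1,8388606,4,[[0,0,1,0,1,1],[0,0,0,1,1,0,1,0]]),(2,8388604,5,[[0,1,0,0],[0,1,1,0,1,0]]),(3,8388600,4,[[1,0],[0,0,0,1,1,0,0],[0,0,0,1,0,0,1,1]]),(5,147488,2,[[2],[0,0,2,0,2],[0,0,1,0],[0,0,1,0,1]]),(4,8241104,1,[])]),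
  (961365507626256404119956257276790816,[(0,8388607,4,[[0,2,1,1,0,2],[0,2,1,0,0,1]]),(1,8388606,5,[[1,0,0],[1,0,1]]),(2,8388604,5,[[0,1,0,0,1,1,1],[1,0,1,1,1,0,1]]),(3,8388600,4,[[0,1,1,1,0],[0,1,1,0,1,1],[1,1,1,0,1,1,0,0]]),(5,147488,1,[[0,0,2],[0,2,0],[0,0,1,2],[0,0,0,1]]),(4,8241104,1,[])]),
  (970499966350631336865513127433832480,[(0,8388607,4,[[1],[0,1,0,1,0,1,0,2,0,1]]),(1,8388606,5,[[0,1,0,1,0],[1,0,1,1,0]]),(2,8388604,5,[[0,1,1,0,1,0,1,0,0],[0,0,1,0,1,1,0,0,1,1,0]]),(3,8388600,4,[[1,1,0,0,0,0,1,0],[0,0,0,0,0,0,1,0,0,0,0],[1,0,0,1,0,0]]),(5,147488,1,[[0,1,0],[2],[0,1,1],[0,2,1,1]]),(4,8241104,1,[])]),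
  (980224387687010295957922729495201824,[(0,8388607,3,[[1,2],[2,1,2]]),(1,8388606,4,[[0,0,0,0,1,0],[0,1,1,0,0,1,1,0,0]]),(2,8388604,4,[[1,0,1],[0,1,1,1,1,1]]),(3,8388600,4,[[1,0,1,0,0,0,1],[0,1,1],[1,0,0,1]]),(5,147488,1,[[2,0,1],[1,2],[2,1],[0]]),(4,8241104,1,[])]),
  (968708902336673183175954409307867168,[(0,8388607,4,[[1,1],[0,0,2,1,1,0,0]]),(1,8388606,4,[[0,0,0,0,1],[1,0,1,0]]),(2,8388604,5,[[0,0,1,0,1,0,0,1,0,0],[1,0,0,0]]),(3,8388600,4,[[0,0,1,1,1],[1,0,1,1,1,0,0],[0,1,0,1,1,1,0]]),(5,147488,1,[[2,2,0,0],[0,1,2,2],[2,0],[0,0,1]]),(4,8241104,1,[])]),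
  (972512676110088067912772961567868960,[(0,8388607,3,[[0,0,2,1,0,0,0],[0,0,2,1,0,1,0]]),(1,8388606,4,[[1,0,1],[1,1,0,0]]),(2,8388604,4,[[0,1,1,0,0,1],[1,1,1,0]]),(3,8388600,4,[[1,1,0,1,0,0,1,1],[0,1,0,0,0,0,1,1],[0,1,0,1,1,0,0,1]]),(5,147488,1,[[1,1,2],[1,2,0,0],[0,1],[1,0]]),(4,8241104,1,[])]),
  (966182099583441531322624363496310816,[(0,8388607,4,[[0,2,1,1,1,0,1],[1]]),(1,8388606,5,[[0,0,1,1,1],[0,0,0,0,1]]),(2,8388604,5,[[1,0,0,1,0],[0,0,1,1,1,0,0,1]]),(3,8388600,4,[[0,1,0,1,0,0,1],[1,0,1,1,1,0],[1,0,1,0,0,0,1]]),(5,147488,1,[[1,0],[0,2,2],[0,0,2],[0,1]]),(4,8241104,1,[])]),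
  (963721886883755259286232606933354528,[(0,8388607,4,[[0,2,0,0,1,0,0],[2,1,1]]),(1,8388606,4,[[0,1,0],[1,1,0,1,1,1]]),(2,8388604,4,[[0,1,1,1,1,1],[0,0,1,1,0,1,1]]),(3,8388600,5,[[0,0,1,1,1,1,1,0,1,0],[1,1,1,0,1],[0,0,1,1,0,1,1]]),(5,147488,1,[[1,0,2],[1,2,0],[0,1],[2]]),(4,8241104,1,[])])]

theorem card_AB : Nat.card (Cl cAB) = 253 :=
  card_of_bfs (gen_Cl (by decide +kernel)) 300 (by decide +kernel)

theorem card_centralizer_23 {L : Subgroup P24} (hL : L ≤ Spor.M23) {x : L}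
    (hx : orderOf x = 23) : Nat.card (Subgroup.centralizer ({x} : Set L)) = 23 := by
  have hx' : orderOf (x : P24) = 23 := by rw [Subgroup.orderOf_coe, hx]
  have h1 : x.1 (some 0) ≠ some 0 := fun h => by
    have := Subgroup.orderOf_dvd_natCard Spor.M22 (x := x.1) ⟨hL x.2, h⟩
    rw [card_M22, hx'] at this
    exact absurd this (by norm_num)
  have h2 := card_orbF_mul ((Subgroup.centralizer ({x} : Set L)).map L.subtype) (some 0)
  have h3 : St ((Subgroup.centralizer ({x} : Set L)).map L.subtype) (some 0 : GolayPt) = ⊥ := by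
    rw [eq_bot_iff]
    rintro _ ⟨⟨c, hc, rfl⟩, hc'⟩
    obtain ⟨O, hO, e, -⟩ := le_card_Fx_of_comm (c := c.1) (by norm_num) hx' h1
      (congrArg Subtype.val (Subgroup.mem_centralizer_singleton_iff.1 hc)) hc'
    exact eq_one_of_nine (hL c.2).1 (le_trans (by omega) (card_le_card hO))
  have h4 : (orbF ((Subgroup.centralizer ({x} : Set L)).map L.subtype) (some 0)).card ≤ 23 := by
    refine le_trans (card_le_card (t := um 8388607) fun y hy => ?_) (by decide +kernel)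
    obtain ⟨_, ⟨c, -, rfl⟩, rfl⟩ := mem_orbF.1 hy
    exact mem_of_smul_eq (smul_M23 _ (hL c.2)) (by decide +kernel)
  rw [h3, Subgroup.card_bot, mul_one, Subgroup.card_map_of_injective L.subtype_injective] at h2
  have h5 := Subgroup.orderOf_dvd_natCard (Subgroup.centralizer ({x} : Set L)) (x := x)
    (Subgroup.mem_centralizer_singleton_iff.2 rfl)
  rw [hx] at h5
  exact le_antisymm (h2 ▸ h4) (Nat.le_of_dvd Nat.card_pos h5)

theorem orbF_23 {H : Subgroup P24} (hH : H ≤ Spor.M23) (h : 23 ∣ Nat.card H) :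
    Nat.card H = 23 * Nat.card (St H (some 0 : GolayPt)) := by
  have h1 := card_orbF_mul H (some 0)
  have h2 : Nat.card (St H (some 0 : GolayPt)) ∣ 443520 := card_M22 ▸
    Subgroup.card_dvd_of_le fun k hk => ⟨hH hk.1, hk.2⟩
  have h4 : (orbF H (some 0)).card ≤ 23 := by
    refine le_trans (card_le_card (t := um 8388607) fun y hy => ?_) (by decide +kernel)
    obtain ⟨c, hc, rfl⟩ := mem_orbF.1 hy
    exact mem_of_smul_eq (smul_M23 _ (hH hc)) (by decide +kernel)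
  rw [h1] at h
  rw [h1, le_antisymm h4 (Nat.le_of_dvd (card_pos.2 ⟨_, mem_orbF.2 ⟨1, one_mem _, rfl⟩⟩)
    (((by norm_num : Nat.Prime 23).dvd_mul.1 h).resolve_right fun e =>
      absurd (e.trans h2) (by norm_num)))]

theorem over_even {H : Subgroup P24} (hH : H ≤ Spor.M23) (hin : In pc H cAB)
    (h : 2 ∣ Nat.card H) : H = Spor.M23 := by
  obtain ⟨t, ht⟩ := exists_prime_orderOf_dvd_card' 2 h
  have ht' : orderOf t.1 = 2 := by rw [Subgroup.orderOf_coe, ht]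
  have h0 : none ∈ Fx t.1 := mem_Fx.2 (hH t.2).2
  obtain ⟨g, hg, e⟩ := (isCAct_mk M24).transitive (fun g hg => (hH hg).1) hin trivial mk_oct0 300
    (N := 253) (by norm_num) (by decide +kernel) (S := {o | o ∈ octads ∧ {none} ⊆ o}) (Set.toFinite _)
    (by rw [← nOct_mk]; decide +kernel) (fun g hg => ⟨smul_mem_octads (hH hg).1 oct0_mem, by
      rw [singleton_subset_iff, ← (hH hg).2]
      exact smul_mem_smul_finset (by decide +kernel)⟩) (Fx t.1)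
    ⟨Fx_involution (hH t.2).1 ht' ⟨_, h0⟩, singleton_subset_iff.2 h0⟩
  have h1 : g⁻¹ * t * g ∈ H := mul_mem (mul_mem (inv_mem hg) t.2) hg
  have h2 : g⁻¹ * t * g ∈ fixOct oct0 := mem_fixOct.2 ⟨(hH h1).1, fun a ha => by
    have : t.1 (g a) = g a := mem_Fx.1 (e ▸ smul_mem_smul_finset ha)
    simp [this]⟩
  have h3 := forall_mem_of_bfs gen_E 20
    (fun c => if c = one ∨ c ∈ cert15.map Prod.fst then 0 else 1) (by decide +kernel) _ h2
  rcases (by simpa [-List.mem_map, -not_or] using h3 :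
    pc (g⁻¹ * t * g) = one ∨ pc (g⁻¹ * t * g) ∈ cert15.map Prod.fst) with h4 | h4
  · rw [← pc_one, pc_inj] at h4
    have : t.1 = 1 := by simpa [mul_assoc, inv_mul_eq_one] using h4
    simp [this] at ht'
  obtain ⟨r, hr, e'⟩ := List.mem_map.1 h4
  have h5 := (by decide +kernel : ∀ r ∈ cert15, chainErr 24 5 r.2 (cAB ++ [r.1]) = 0 ∧
    chainProd 24 r.2 = 10200960) r hr
  refine Subgroup.eq_of_le_of_card_ge hH ?_
  rw [card_M23, ← h5.2]
  refine le_card_of_in (fun c hc => ?_) h5.1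
  rcases List.mem_append.1 hc with hc | hc
  exacts [hin c hc, ⟨_, h1, by rw [List.mem_singleton.1 hc, e']⟩]

theorem over253 {H : Subgroup P24} (hH : H ≤ Spor.M23) (hin : In pc H cAB) :
    H = Cl cAB ∨ H = Spor.M23 := by
  refine or_iff_not_imp_right.2 fun h => (Subgroup.eq_of_le_of_card_ge (Cl_le hin) ?_).symm
  have h1 : ¬ 2 ∣ Nat.card H := fun e => h (over_even hH hin e)
  obtain ⟨k, hk⟩ : 253 ∣ Nat.card H := card_AB ▸ Subgroup.card_dvd_of_le (Cl_le hin)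
  have h2 : k ∣ 315 := by
    have := Subgroup.card_dvd_of_le hH
    rw [card_M23, hk, show 10200960 = 253 * (2 ^ 7 * 315) by norm_num] at this
    refine Nat.Coprime.dvd_of_dvd_mul_left (Nat.Coprime.pow_right _ ?_)
      (Nat.dvd_of_mul_dvd_mul_left (by norm_num) this)
    exact ((Nat.prime_two.coprime_iff_not_dvd).2 fun e => h1 (hk ▸ e.mul_left _)).symm
  have h3 := orbF_23 hH (hk ▸ Dvd.dvd.mul_right (by norm_num) _)
  have h4 := sylow_eleven (L := St H (some 0 : GolayPt)) (m := k) (fun g hg => ⟨hH hg.1, hg.2⟩)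
    (by omega) fun e => absurd (e.trans h2) (by norm_num)
  obtain ⟨x, hx, n, c, h5, h6, -, h7⟩ := sylow_prime_count (L := H) (p := 23) (m := 11 * k)
    (by norm_num) (by omega) fun e => absurd (e.trans (Nat.mul_dvd_mul_left 11 h2)) (by norm_num)
  rw [card_centralizer_23 hH hx] at h7
  have h8 : k = 1 := (by decide +kernel : ∀ k ∈ Nat.divisors 315, (∃ c ∈ Nat.divisors 220,
    c ∣ 11 * k ∧ 11 * k / c % 11 = 1) → ∀ c ∈ Nat.divisors 506, 253 * k / c % 23 = 1 → k = 1) k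
    (Nat.mem_divisors.2 ⟨h2, by norm_num⟩) h4 c (Nat.mem_divisors.2 ⟨h7, by norm_num⟩) (by
      rw [← hk, ← h6, Nat.mul_div_cancel _ (Nat.pos_of_dvd_of_pos h7 (by norm_num)), h5])
  rw [card_AB, hk, h8]

/-- codes of generators of `PSL(2,23)` -/
def cL : List ℕ := 1795248432537898728475572672376535 :: cAB

theorem card_cL : Nat.card (Cl cL) = 6072 :=
  card_of_bfs (gen_Cl (by decide +kernel)) 6100 (by decide +kernel)

theorem over6072 {H : Subgroup P24} (hH : H ≤ M24) (hin : In pc H cL) : H = Cl cL ∨ H = M24 := by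
  have h1 := card_orbF_mul H none
  have h2 : (orbF H none).card ≤ 24 := (card_le_univ _).trans card_golayPt.le
  have h4 : In pc (St H (none : GolayPt)) cAB := fun c hc => by
    obtain ⟨g, hg, rfl⟩ := hin c (List.mem_cons_of_mem _ hc)
    exact ⟨g, ⟨hg, gE.enc_injective ((get_pc g none).symm.trans
      ((by decide +kernel : ∀ c ∈ cAB, get 5 c (gE.enc none) = gE.enc none) _ hc))⟩, rfl⟩
  rcases over253 (fun g hg => ⟨hH (mem_St.1 hg).1, (mem_St.1 hg).2⟩) h4 with e | e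
  · refine Or.inl (Subgroup.eq_of_le_of_card_ge (Cl_le hin) ?_).symm
    rw [h1, e, card_AB, card_cL]; omega
  · refine Or.inr (le_antisymm hH ?_)
    rw [← closure_eq_M24, Subgroup.closure_le]
    rintro _ (rfl | rfl | rfl)
    · exact (mem_St.1 (e.ge ⟨alpha_mem, rfl⟩)).1
    · obtain ⟨g, hg, e'⟩ := hin _ List.mem_cons_self
      rwa [pc_injective (pc_projInv.trans e'.symm)]
    · exact (mem_St.1 (e.ge ⟨cubeTwist_mem, rfl⟩)).1

theorem mulSquare_mem_AB (u : (ZMod 23)ˣ) (hu : IsSquare u) :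
    Equiv.optionCongr (Units.mulLeft u) ∈ Cl cAB := by
  obtain ⟨r, rfl⟩ := hu
  have h : ∀ x : ZMod 23, x ≠ 0 → ∃ k < 11, pack 5
      (fun i => gE.enc (Option.map (fun y => x * x * y) (gE.dec i))) 24 =
        pw 983435072843990828779021698901151808 k := by decide +kernel
  have hp : Fact (Nat.Prime 23) := ⟨by norm_num⟩
  obtain ⟨k, -, e⟩ := h r r.ne_zero
  obtain ⟨g, hg, e'⟩ := (gen_Cl (cs := cAB) (by decide +kernel)).1 _
    (List.mem_cons_of_mem _ List.mem_cons_self)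
  have e2 : pc (Equiv.optionCongr (Units.mulLeft (r * r))) = pc (g ^ k) :=
    e.trans ((congrArg (pw · k) e').symm.trans (pw_pc g k))
  exact pc_injective e2 ▸ pow_mem hg k

theorem in_AB {H : Subgroup P24} (h1 : alpha ∈ H)
    (h2 : ∀ u : (ZMod 23)ˣ, IsSquare u → Equiv.optionCongr (Units.mulLeft u) ∈ H) :
    In pc H cAB := by
  intro c hc
  rcases List.mem_cons.1 hc with rfl | hc
  · exact ⟨_, h1, pc_alpha⟩
  · exact ⟨_, h2 _ ⟨⟨5, 14, by decide, by decide⟩, rfl⟩, by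
      rw [List.mem_singleton.1 hc]; decide +kernel⟩

theorem isCoatom_of_over {G M : Subgroup P24} (hM : M ≤ G) (hne : Nat.card M ≠ Nat.card G)
    (h : ∀ H, M ≤ H → H ≤ G → H = M ∨ H = G) {Γ : Type*} [Group Γ] {f : Γ →* P24}
    (hf : Function.Injective f) (hr : f.range = G) : IsCoatom (M.comap f) := by
  have h0 : (M.comap f).map f = M := Subgroup.map_comap_eq_self (hr ▸ hM)
  refine ⟨fun e => hne ?_, fun K hK => Subgroup.map_injective hf ?_⟩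
  · rw [← h0, e, ← MonoidHom.range_eq_map, hr]
  · rw [← MonoidHom.range_eq_map, hr]
    refine (h _ (h0 ▸ Subgroup.map_mono hK.le) (hr ▸ Subgroup.map_le_range _ _)).resolve_left
      fun e => hK.ne' (Subgroup.map_injective hf (e.trans h0.symm))

end Cfsg.Agent.Golay
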