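import Mathlib
import Cfsg.Agent.Fischer.ES
import Cfsg.Agent.S0249

/-! Groups with an involution centralizer `2^{1+6} ⋊ SL₃(2)` as in `SL₅(2)`. -/

set_option autoImplicit false

namespace Cfsg.Agent.Golay.LX

open Cfsg Subgroup Matrix

abbrev V3 := Fin 3 → ZMod 2
abbrev S3 := SpecialLinearGroup (Fin 3) (ZMod 2)

theorem simple_S3 : IsSimpleGroup S3 := by
  have := S0249.result (F := ZMod 2) 3 le_rfl
  have h5 : center S3 = ⊥ := eq_bot_iff.2 fun g hg => by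
    obtain ⟨r, h6, h7⟩ := Matrix.SpecialLinearGroup.mem_center_iff.1 hg
    obtain rfl : r = 1 := ((by decide : ∀ a : ZMod 2, a = 0 ∨ a = 1) r).resolve_left
      fun e => by simp [e] at h6
    exact Subtype.ext (by simpa using h7.symm)
  exact (QuotientGroup.quotientBot.symm.trans
    (QuotientGroup.quotientMulEquivOfEq h5.symm)).isSimpleGroup

theorem not_two_S3 : ¬ IsPGroup 2 S3 := fun h => by
  let x : S3 := ⟨!![0, 1, 0; 0, 0, 1; 1, 0, 0], by decide⟩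
  obtain ⟨k, hk⟩ := h x
  have h3 : x ^ 3 = 1 := by decide
  have h1 := pow_gcd_eq_one.2 ⟨hk, h3⟩
  rw [Nat.Coprime.gcd_eq_one (Nat.Coprime.pow_left _ (by norm_num)), pow_one] at h1
  exact absurd (congrArg Subtype.val h1) (by decide)

variable {G : Type*} [Group G]

theorem inv_of_fpf [Finite G] {K : Subgroup G} (hK : Odd (Nat.card K)) {e : G} (he : e * e = 1)
    (hn : e ∈ normalizer (K : Set G)) (hc : ∀ k ∈ K, Commute k e → k = 1) {k : G} (hk : k ∈ K) :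
    e * k * e⁻¹ = k⁻¹ := by
  have hi : e⁻¹ = e := inv_eq_of_mul_eq_one_right he
  have hd : k * (e * k⁻¹ * e⁻¹) ∈ K := mul_mem hk ((mem_normalizer_iff.1 hn _).1 (inv_mem hk))
  obtain ⟨j, hj⟩ := hK.of_dvd_nat (K.orderOf_dvd_natCard hd)
  set d := k * (e * k⁻¹ * e⁻¹) with hdd
  have h1 : e * d * e⁻¹ = d⁻¹ := by
    rw [hdd]
    calc e * (k * (e * k⁻¹ * e⁻¹)) * e⁻¹ = e * k * e * k⁻¹ * (e * e)⁻¹ := by group
      _ = e * k * e⁻¹ * k⁻¹ := by rw [he, hi, inv_one, mul_one]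
      _ = _ := by group
  have h2 : e * d ^ (j + 1) * e⁻¹ = (d ^ (j + 1))⁻¹ := by
    rw [← conj_pow, h1, inv_pow]
  have h3 : d ^ (j + 1) * d ^ (j + 1) = d := by
    rw [← pow_add, show j + 1 + (j + 1) = 2 * j + 1 + 1 by ring, ← hj, pow_succ, pow_orderOf_eq_one,
      one_mul]
  have h4 := hc _ (mul_mem (inv_mem (pow_mem hd (j + 1))) hk) (by
    show (d ^ (j + 1))⁻¹ * k * e = e * ((d ^ (j + 1))⁻¹ * k)
    calc (d ^ (j + 1))⁻¹ * k * e = (d ^ (j + 1))⁻¹ * (k * (e * k⁻¹ * e⁻¹)) * e * k := by group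
      _ = d ^ (j + 1) * e * k := by rw [← hdd]; nth_rewrite 2 [← h3]; group
      _ = (e * d ^ (j + 1) * e⁻¹)⁻¹ * e * e * e⁻¹ * k := by rw [h2]; group
      _ = e * (d ^ (j + 1))⁻¹ * e⁻¹ * e * (e * e⁻¹) * k := by group
      _ = _ := by group)
  rw [← inv_mul_eq_one.1 h4, h2]

/-- the data of the centralizer -/
structure Mod (f : ZMod 2 → V3 → V3 → S3 → G) (u : G) : Prop where
  mul : ∀ a b c A a' b' c' A', f a b c A * f a' b' c' A' =
    f (a + a' + b ⬝ᵥ c') (b' + b ᵥ* A'.1) (c + A.1 *ᵥ c') (A * A')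
  inj : ∀ {a b c A a' b' c' A'}, f a b c A = f a' b' c' A' → a = a' ∧ b = b' ∧ c = c' ∧ A = A'
  cent : ∀ g, Commute g (f 1 0 0 1) → ∃ a b c A, g = f a b c A
  conj : ∀ a b, u * f a b 0 1 * u⁻¹ = f (b 0) ![a + b 0, b 1, b 2] 0 1

variable {f : ZMod 2 → V3 → V3 → S3 → G} {u : G}

namespace Mod

theorem one (h : Mod f u) : f 0 0 0 1 = 1 := by
  have := h.mul 0 0 0 1 0 0 0 1
  simp only [add_zero, dotProduct_zero, zero_vecMul, mulVec_zero, mul_one] at this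
  exact mul_eq_left.1 this

theorem mulq (h : Mod f u) (a a' : ZMod 2) (b c b' c' : V3) :
    f a b c 1 * f a' b' c' 1 = f (a + a' + b ⬝ᵥ c') (b' + b) (c + c') 1 := by
  rw [h.mul]; simp

theorem eqq (h : Mod f u) {a a' : ZMod 2} {b c b' c' : V3} :
    f a b c 1 = f a' b' c' 1 ↔ a = a' ∧ b = b' ∧ c = c' :=
  ⟨fun e => ⟨(h.inj e).1, (h.inj e).2.1, (h.inj e).2.2.1⟩, fun ⟨e1, e2, e3⟩ => by rw [e1, e2, e3]⟩

theorem invq (h : Mod f u) (a : ZMod 2) (b c : V3) : (f a b c 1)⁻¹ = f (a + b ⬝ᵥ c) b c 1 := by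
  refine inv_eq_of_mul_eq_one_right ?_
  rw [h.mulq, ← h.one, h.eqq]
  revert a b c; decide +kernel

/-- the extraspecial group -/
def Q (h : Mod f u) : Subgroup G where
  carrier := {g | ∃ a b c, g = f a b c 1}
  one_mem' := ⟨0, 0, 0, h.one.symm⟩
  mul_mem' := by rintro _ _ ⟨a, b, c, rfl⟩ ⟨a', b', c', rfl⟩; exact ⟨_, _, _, h.mulq ..⟩
  inv_mem' := by rintro _ ⟨a, b, c, rfl⟩; exact ⟨_, _, _, h.invq ..⟩

/-- the elementary abelian group -/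
def E (h : Mod f u) : Subgroup G where
  carrier := {g | ∃ a b, g = f a b 0 1}
  one_mem' := ⟨0, 0, h.one.symm⟩
  mul_mem' := by
    rintro _ _ ⟨a, b, rfl⟩ ⟨a', b', rfl⟩; exact ⟨_, _, by rw [h.mulq, add_zero]⟩
  inv_mem' := by rintro _ ⟨a, b, rfl⟩; exact ⟨_, _, h.invq ..⟩

/-- the complement -/
def κ (h : Mod f u) : S3 →* G := MonoidHom.mk' (f 0 0 0) fun A B => by rw [h.mul]; simp

theorem commz (h : Mod f u) (a : ZMod 2) (b c : V3) (A : S3) : Commute (f a b c A) (f 1 0 0 1) := by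
  show _ = _
  rw [h.mul, h.mul]; simp [add_comm]

theorem cjq (h : Mod f u) {g : G} (hg : Commute g (f 1 0 0 1)) (a : ZMod 2) (b c : V3) :
    ∃ a' b' c', g * f a b c 1 * g⁻¹ = f a' b' c' 1 ∧ (c = 0 → c' = 0) := by
  obtain ⟨a1, b1, c1, A1, e1⟩ := h.cent _ hg
  obtain ⟨a2, b2, c2, A2, e2⟩ := h.cent _ hg.inv_left
  have h1 := mul_inv_cancel g
  rw [e2, ← h.one] at h1
  nth_rewrite 1 [e1] at h1
  rw [h.mul] at h1
  obtain ⟨-, -, h2, h3⟩ := h.inj h1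
  rw [e2]; nth_rewrite 1 [e1]
  rw [h.mul, h.mul, mul_one, h3]
  exact ⟨_, _, _, rfl, fun e => by simpa [e] using h2⟩

theorem centE (h : Mod f u) {g : G} (hg : ∀ x ∈ h.E, Commute g x) : g ∈ h.E := by
  obtain ⟨a, b, c, A, rfl⟩ := h.cent _ (hg _ ⟨_, _, rfl⟩)
  have h1 : ∀ v : V3, v ⬝ᵥ c = 0 ∧ v ᵥ* A.1 = v := fun v => by
    have := (hg _ ⟨0, v, rfl⟩).eq
    rw [h.mul, h.mul] at this
    obtain ⟨h2, h3, -⟩ := h.inj this
    have h4 : v + b ᵥ* (1 : Matrix (Fin 3) (Fin 3) (ZMod 2)) = b + v ᵥ* A.1 := h3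
    rw [vecMul_one, add_comm] at h4
    exact ⟨by simpa using h2, (add_left_cancel h4).symm⟩
  obtain rfl : c = 0 := dotProduct_eq_zero _ fun v => by rw [dotProduct_comm, (h1 v).1]
  obtain rfl : A = 1 := Subtype.ext (Matrix.ext_iff_vecMul.2 fun v => by simp [(h1 v).2])
  exact ⟨_, _, rfl⟩

theorem E_le (h : Mod f u) : h.E ≤ h.Q := fun _ ⟨a, b, e⟩ => ⟨a, b, 0, e⟩

theorem ls (h : Mod f u) : Fischer.LS h.Q (f 1 0 0 1) := by
  refine ⟨⟨⟨_, _, _, rfl⟩, ?_, ?_, ?_, ?_, ?_, ?_, ?_⟩,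
    fun g hg => h.E_le (h.centE fun x hx => hg x (h.E_le hx)), ?_⟩
  · rw [← h.one, Ne, h.eqq]; decide
  · rw [h.mulq, ← h.one, h.eqq]; decide
  · rintro _ ⟨a, b, c, rfl⟩; exact (h.commz ..).symm
  · rintro _ ⟨a, b, c, rfl⟩ _ ⟨a', b', c', rfl⟩
    rw [h.invq, h.mulq, h.mulq, h.mulq, h.eqq, h.eqq]
    revert a a' b c b' c'; decide +kernel
  · rintro _ ⟨a, b, c, rfl⟩
    rw [h.mulq, ← h.one, h.eqq, h.eqq]
    revert a b c; decide +kernel
  · rintro _ ⟨a, b, c, rfl⟩ hc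
    have h1 : ∀ b' c' : V3, b ⬝ᵥ c' = b' ⬝ᵥ c := fun b' c' => by
      have := (hc _ ⟨0, b', c', rfl⟩).eq
      rw [h.mulq, h.mulq, h.eqq] at this
      simpa using this.1
    rw [← h.one, h.eqq, h.eqq]
    clear hc
    revert a b c; decide +kernel
  · refine ⟨_, ⟨0, ![1, 0, 0], 0, rfl⟩, _, ⟨0, 0, ![1, 0, 0], rfl⟩, fun e => ?_⟩
    have := e.eq
    rw [h.mulq, h.mulq, h.eqq] at this
    revert this; decide
  · rintro g hg _ ⟨a, b, c, rfl⟩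
    obtain ⟨a', b', c', e, -⟩ := h.cjq hg a b c
    exact ⟨_, _, _, e⟩

theorem cjE (h : Mod f u) {g : G} (hg : Commute g (f 1 0 0 1)) {x : G} (hx : x ∈ h.E) :
    g * x * g⁻¹ ∈ h.E := by
  obtain ⟨a, b, rfl⟩ := hx
  obtain ⟨a', b', c', e, e'⟩ := h.cjq hg a b 0
  exact ⟨a', b', by rw [e, e' rfl]⟩

theorem u_norm [Finite G] (h : Mod f u) : u ∈ normalizer (h.E : Set G) :=
  mem_normalizer_fintype (by rintro _ ⟨a, b, rfl⟩; exact ⟨_, _, h.conj a b⟩)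

theorem odd [Finite G] (h : Mod f u) (K : Subgroup G) (hK : Odd (Nat.card K))
    (hn : h.Q ≤ normalizer (K : Set G)) : K = ⊥ := by
  have hodd : ∀ x ∈ K, Odd (orderOf x) := fun x hx => hK.of_dvd_nat (K.orderOf_dvd_natCard hx)
  have hE : IsPGroup 2 h.E := h.ls.isPGroup.to_le h.E_le
  have key : ∀ v ∈ normalizer (h.E : Set G), ∀ k ∈ K,
      v * f 1 0 0 1 * v⁻¹ * k * (v * f 1 0 0 1 * v⁻¹)⁻¹ = k⁻¹ := fun v hv k hk => by
    refine inv_of_fpf hK ?_ (hn (h.E_le ((mem_normalizer_iff.1 hv _).1 ⟨_, _, rfl⟩)))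
      (fun k hk hc => ?_) hk
    · rw [conj_mul, h.ls.zsq]; group
    have h1 : Commute (v⁻¹ * k * v) (f 1 0 0 1) := by
      show v⁻¹ * k * v * f 1 0 0 1 = f 1 0 0 1 * (v⁻¹ * k * v)
      calc v⁻¹ * k * v * f 1 0 0 1 = v⁻¹ * (k * (v * f 1 0 0 1 * v⁻¹)) * v := by group
        _ = _ := by rw [hc.eq]; group
    have h2 : v⁻¹ * k * v ∈ normalizer (h.E : Set G) := mem_normalizer_fintype fun x hx => h.cjE h1 hx
    have h3 : k ∈ normalizer (h.E : Set G) := by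
      simpa [mul_assoc] using mul_mem (mul_mem hv h2) (inv_mem hv)
    refine Inv.eq_one_of_odd_of_mem_two_group hE (h.centE fun x hx => ?_) (hodd k hk)
    have h4 : k * x * k⁻¹ * x⁻¹ = 1 := Inv.eq_one_of_odd_of_mem_two_group hE
      (mul_mem ((mem_normalizer_iff.1 h3 _).1 hx) (inv_mem hx)) (hodd _ (by
        have := mul_mem hk ((mem_normalizer_iff.1 (hn (h.E_le hx)) _).1 (inv_mem hk))
        simpa [mul_assoc] using this))
    exact Inv.commute_iff_conj.2 (mul_inv_eq_one.1 h4)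
  refine eq_bot_iff.2 fun k hk => Inv.eq_one_of_odd_of_mul_self (hodd k hk) ?_
  have h1 := key 1 (one_mem _) k hk
  have h2 := key u h.u_norm k⁻¹ (inv_mem hk)
  have h3 := key (u * u) (mul_mem h.u_norm h.u_norm) k hk
  have h4 : u * u * f 1 0 0 1 * (u * u)⁻¹ = (u * f 1 0 0 1 * u⁻¹) * (1 * f 1 0 0 1 * 1⁻¹) := by
    rw [show u * u * f 1 0 0 1 * (u * u)⁻¹ = u * (u * f 1 0 0 1 * u⁻¹) * u⁻¹ by group, h.conj,
      h.conj, one_mul, inv_one, mul_one, h.mulq, h.eqq]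
    decide
  rw [h4] at h3
  generalize u * f 1 0 0 1 * u⁻¹ = x at h2 h3
  generalize 1 * f 1 0 0 1 * 1⁻¹ = y at h1 h3
  rw [show x * y * k * (x * y)⁻¹ = x * (y * k * y⁻¹) * x⁻¹ by group, h1, h2, inv_inv] at h3
  exact mul_eq_one_iff_eq_inv.2 h3

theorem core [Finite G] (h : Mod f u) :
    pCoreOf 2 (centralizer ({f 1 0 0 1} : Set G)) = h.Q := by
  have hn : centralizer ({f 1 0 0 1} : Set G) ≤ normalizer (h.Q : Set G) := fun g hg =>
    h.ls.mem_normalizer (Inv.mem_centralizer_single.1 hg)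
  have hQ : h.Q ≤ pCoreOf 2 (centralizer ({f 1 0 0 1} : Set G)) :=
    LocalEven.le_pCoreOf (by
      rintro _ ⟨a, b, c, rfl⟩; exact Inv.mem_centralizer_single.2 (h.commz ..)) hn h.ls.isPGroup
  refine le_antisymm (fun g hg => ?_) hQ
  have hinj : Function.Injective h.κ := fun A B e => (h.inj e).2.2.2
  have hN : ((pCoreOf 2 (centralizer ({f 1 0 0 1} : Set G))).comap h.κ).Normal := ⟨fun n hn A => by
    rw [mem_comap, map_mul, map_mul, map_inv]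
    exact (mem_normalizer_iff.1 (LocalEven.le_normalizer_pCoreOf _
      (Inv.mem_centralizer_single.2 (h.commz 0 0 0 A))) _).1 hn⟩
  have hp := (LocalEven.isPGroup_pCoreOf (p := 2)
    (centralizer ({f 1 0 0 1} : Set G))).comap_of_injective h.κ hinj
  have := simple_S3
  have hb := hN.eq_bot_or_eq_top.resolve_right fun e => not_two_S3 (by
    rw [e] at hp; exact hp.of_equiv topEquiv)
  obtain ⟨a, b, c, A, rfl⟩ := h.cent g (Inv.mem_centralizer_single.1 (LocalEven.pCoreOf_le _ hg))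
  have h1 : f a b c A * f 0 0 0 A⁻¹ ∈ h.Q := by rw [h.mul, mul_inv_cancel]; exact ⟨_, _, _, rfl⟩
  have h2 : A⁻¹ ∈ (pCoreOf 2 (centralizer ({f 1 0 0 1} : Set G))).comap h.κ :=
    (mul_mem_cancel_left hg).1 (hQ h1)
  rw [hb, mem_bot, inv_eq_one] at h2
  exact ⟨a, b, c, by rw [h2]⟩

theorem main [Finite G] (h : Mod f u) {z : G} (hz : z = f 1 0 0 1) {Q : Subgroup G}
    (hQ : Q = pCoreOf 2 (centralizer ({z} : Set G))) :
    IsExtraspecial 2 Q ∧ Nat.card Q = 2 ^ 7 ∧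
    (∃ E : Subgroup G, E ≤ Q ∧ IsElementaryAbelian 2 E ∧ Nat.card E = 2 ^ 4) ∧
    IsLargeExtraspecial Q ∧ ∃ K : Subgroup G, K ≤ centralizer ({z} : Set G) ∧ Q ⊓ K = ⊥ ∧
      Q ⊔ K = centralizer ({z} : Set G) ∧ Nonempty (K ≃* S3) := by
  subst hz
  rw [h.core] at hQ
  subst hQ
  have hinj : Function.Injective h.κ := fun A B e => (h.inj e).2.2.2
  have hK : h.κ.range ≤ centralizer ({f 1 0 0 1} : Set G) := by
    rintro _ ⟨A, rfl⟩; exact Inv.mem_centralizer_single.2 (h.commz 0 0 0 A)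
  refine ⟨h.ls.isExtraspecial, ?_, ⟨h.E, h.E_le, ⟨⟨⟨?_⟩⟩, ?_⟩, ?_⟩, h.ls.large h.odd,
    h.κ.range, hK, eq_bot_iff.2 ?_, le_antisymm (sup_le ?_ hK) fun g hg => ?_,
    ⟨(MonoidHom.ofInjective hinj).symm⟩⟩
  · rw [← Nat.card_eq_of_bijective (fun x : ZMod 2 × V3 × V3 =>
      (⟨f x.1 x.2.1 x.2.2 1, _, _, _, rfl⟩ : h.Q)) ⟨fun x y e => by
        obtain ⟨e1, e2, e3⟩ := h.eqq.1 (congrArg Subtype.val e)
        exact Prod.ext e1 (Prod.ext e2 e3), fun ⟨_, a, b, c, rfl⟩ => ⟨(a, b, c), rfl⟩⟩]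
    simp
  · rintro ⟨_, a, b, rfl⟩ ⟨_, a', b', rfl⟩
    refine Subtype.ext ?_
    show f a b 0 1 * f a' b' 0 1 = f a' b' 0 1 * f a b 0 1
    rw [h.mulq, h.mulq]; simp [add_comm]
  · rintro _ ⟨a, b, rfl⟩
    rw [sq, h.mulq, ← h.one, h.eqq]
    revert a b; decide +kernel
  · rw [← Nat.card_eq_of_bijective (fun x : ZMod 2 × V3 =>
      (⟨f x.1 x.2 0 1, _, _, rfl⟩ : h.E)) ⟨fun x y e => by
        obtain ⟨e1, e2, -⟩ := h.eqq.1 (congrArg Subtype.val e)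
        exact Prod.ext e1 e2, fun ⟨_, a, b, rfl⟩ => ⟨(a, b), rfl⟩⟩]
    simp
  · rintro _ ⟨⟨a, b, c, e⟩, A, rfl⟩
    rw [(h.inj e).2.2.2, map_one]; exact one_mem _
  · rintro _ ⟨a, b, c, rfl⟩; exact Inv.mem_centralizer_single.2 (h.commz ..)
  · obtain ⟨a, b, c, A, rfl⟩ := h.cent g (Inv.mem_centralizer_single.1 hg)
    have h1 : f a b c A * h.κ A⁻¹ ∈ h.Q := by
      show f a b c A * f 0 0 0 A⁻¹ ∈ h.Q
      rw [h.mul, mul_inv_cancel]; exact ⟨_, _, _, rfl⟩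
    have := mul_mem_sup h1 (show h.κ A ∈ h.κ.range from ⟨A, rfl⟩)
    rwa [map_inv, inv_mul_cancel_right] at this

end Mod

end Cfsg.Agent.Golay.LX
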