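import Mathlib
import Cfsg.Agent.Golay.LX

/-! The matrix model of `2^{1+6} ⋊ SL₃(2)` in a vector stabilizer of `SL₅(2)`. -/

set_option autoImplicit false

namespace Cfsg.Agent.Golay.LX

open Cfsg Subgroup Matrix MulAction

abbrev S5 := SpecialLinearGroup (Fin 5) (ZMod 2)
abbrev P5 := stabilizer S5 (Pi.single 0 1 : Fin 5 → ZMod 2)

/-- the block matrix -/
def bm (a : ZMod 2) (b c : V3) (A : Matrix (Fin 3) (Fin 3) (ZMod 2)) :
    Matrix (Fin 5) (Fin 5) (ZMod 2) :=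
  !![1, a, b 0, b 1, b 2; 0, 1, 0, 0, 0; 0, c 0, A 0 0, A 0 1, A 0 2;
    0, c 1, A 1 0, A 1 1, A 1 2; 0, c 2, A 2 0, A 2 1, A 2 2]

theorem bm_mul (a a' : ZMod 2) (b c b' c' : V3) (A A' : Matrix (Fin 3) (Fin 3) (ZMod 2)) :
    bm a b c A * bm a' b' c' A' =
      bm (a + a' + b ⬝ᵥ c') (b' + b ᵥ* A') (c + A *ᵥ c') (A * A') := by
  ext i j
  fin_cases i <;> fin_cases j <;>
    simp [bm, Matrix.mul_apply, Fin.sum_univ_five, Fin.sum_univ_three, dotProduct, vecMul, mulVec] <;>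
    ring

theorem det_bm (a : ZMod 2) (b c : V3) (A : Matrix (Fin 3) (Fin 3) (ZMod 2)) :
    (bm a b c A).det = A.det := by
  rw [Matrix.det_succ_column_zero, Fin.sum_univ_five]
  have h : ((bm a b c A).submatrix (Fin.succAbove 0) Fin.succ).det = A.det := by
    rw [Matrix.det_succ_row_zero, Fin.sum_univ_four]
    have h2 : (((bm a b c A).submatrix (Fin.succAbove 0) Fin.succ).submatrix Fin.succ
        (Fin.succAbove 0)) = A := by
      ext i j; fin_cases i <;> fin_cases j <;> rfl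
    rw [h2]
    simp [bm]
  rw [h]; simp [bm]

theorem bm_inj {a a' : ZMod 2} {b c b' c' : V3} {A A' : Matrix (Fin 3) (Fin 3) (ZMod 2)}
    (h : bm a b c A = bm a' b' c' A') : a = a' ∧ b = b' ∧ c = c' ∧ A = A' := by
  refine ⟨congrFun₂ h 0 1, funext fun i => ?_, funext fun i => ?_, Matrix.ext fun i j => ?_⟩
  · fin_cases i
    exacts [congrFun₂ h 0 2, congrFun₂ h 0 3, congrFun₂ h 0 4]
  · fin_cases i
    exacts [congrFun₂ h 2 1, congrFun₂ h 3 1, congrFun₂ h 4 1]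
  · have := congrFun₂ h i.succ.succ j.succ.succ
    fin_cases i <;> fin_cases j <;> exact this

/-- the element of the stabilizer -/
def el (a : ZMod 2) (b c : V3) (A : S3) : P5 :=
  ⟨⟨bm a b c A.1, (det_bm ..).trans A.2⟩, by
    show (bm a b c A.1) *ᵥ _ = _
    ext i; fin_cases i <;> simp [bm]⟩

theorem el_cent (g : P5) (hg : Commute g (el 1 0 0 1)) : ∃ a b c A, g = el a b c A := by
  have h1 : g.1.1 *ᵥ Pi.single 0 1 = Pi.single 0 1 := g.2
  have h2 : g.1.1 * bm 1 0 0 1 = bm 1 0 0 1 * g.1.1 := congrArg (fun x : P5 => x.1.1) hg.eq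
  have h3 : ∀ i, g.1.1 i 0 = (Pi.single 0 1 : Fin 5 → ZMod 2) i := fun i => by
    simpa using congrFun h1 i
  have h4 : ∀ j, g.1.1 1 j = (Pi.single 1 1 : Fin 5 → ZMod 2) j := fun j => by
    have := congrFun₂ h2 0 j
    have h0 := h3 0
    simp only [Matrix.mul_apply, Fin.sum_univ_five, h0] at this
    fin_cases j <;> simp [bm] at this ⊢ <;> 
      first | exact this | linear_combination -this | simpa using h3 1
  have h5 : g.1.1 = bm (g.1.1 0 1) (fun j => g.1.1 0 j.succ.succ) (fun i => g.1.1 i.succ.succ 1)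
      (g.1.1.submatrix (fun i => i.succ.succ) fun j => j.succ.succ) := by
    ext i j
    fin_cases i <;> fin_cases j <;> first | rfl | exact h3 _ | exact h4 _
  have h6 := g.1.2
  rw [h5, det_bm] at h6
  exact ⟨g.1.1 0 1, fun j => g.1.1 0 j.succ.succ, fun i => g.1.1 i.succ.succ 1, ⟨_, h6⟩,
    Subtype.ext (Subtype.ext h5)⟩

/-- an element of order three permuting a four-group of transvections -/
def u5 : P5 := ⟨⟨!![1, 0, 0, 0, 0; 0, 1, 1, 0, 0; 0, 1, 0, 0, 0; 0, 0, 0, 1, 0; 0, 0, 0, 0, 1],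
  by decide +kernel⟩, by
    show (_ : Matrix _ _ _) *ᵥ _ = _
    decide +kernel⟩

theorem mod_of_hom {G : Type*} [Group G] (φ : P5 →* G) (hφ : Function.Injective φ)
    (hC : ∀ g, Commute g (φ (el 1 0 0 1)) → g ∈ φ.range) :
    Mod (fun a b c A => φ (el a b c A)) (φ u5) := by
  refine ⟨fun a b c A a' b' c' A' => ?_, fun e => ?_, fun g hg => ?_, fun a b => ?_⟩
  · rw [← map_mul]
    exact congrArg φ (Subtype.ext (Subtype.ext (bm_mul ..)))
  · obtain ⟨e1, e2, e3, e4⟩ := bm_inj (congrArg (fun x : P5 => x.1.1) (hφ e))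
    exact ⟨e1, e2, e3, Subtype.ext e4⟩
  · obtain ⟨k, rfl⟩ := hC g hg
    obtain ⟨a, b, c, A, rfl⟩ := el_cent k (hφ (by rw [map_mul, map_mul]; exact hg.eq))
    exact ⟨a, b, c, A, rfl⟩
  · rw [mul_inv_eq_iff_eq_mul, ← map_mul, ← map_mul]
    refine congrArg φ (Subtype.ext (Subtype.ext ?_))
    show u5.1.1 * bm a b 0 1 = bm (b 0) ![a + b 0, b 1, b 2] 0 1 * u5.1.1
    revert a b; decide +kernel

end Cfsg.Agent.Golay.LX
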