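import Mathlib
import Cfsg.Agent.Golay.Steiner

/-!
Counting in the Steiner system `S(3, 6, 22)` and its strongly regular graphs.
-/

namespace Cfsg.Agent.Golay

open Finset

theorem isSRG_of_ncard {V : Type*} [Fintype V] {G : SimpleGraph V} [DecidableRel G.Adj]
    {n k l m : ℕ} (h0 : Fintype.card V = n)
    (h1 : ∀ v, {u | G.Adj v u ∧ G.Adj v u}.ncard = k)
    (h2 : ∀ v w, G.Adj v w → {u | G.Adj v u ∧ G.Adj w u}.ncard = l)
    (h3 : ∀ v w, v ≠ w → ¬ G.Adj v w → {u | G.Adj v u ∧ G.Adj w u}.ncard = m) :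
    G.IsSRGWith n k l m := by
  refine ⟨h0, fun v => ?_, fun v w h => ?_, fun v w h h' => ?_⟩
  · rw [← h1 v, ← SimpleGraph.card_neighborSet_eq_degree, ← Nat.card_eq_fintype_card,
      Nat.card_coe_set_eq]
    congr 1; ext; simp
  · rw [← h2 v w h, ← Nat.card_eq_fintype_card, Nat.card_coe_set_eq]; rfl
  · rw [← h3 v w h h', ← Nat.card_eq_fintype_card, Nat.card_coe_set_eq]; rfl

theorem ncard_subtype_eq {β : Type*} {B : Set β} (S : Set B) (Q : β → Prop)
    (h : ∀ b : B, b ∈ S ↔ Q b) : S.ncard = {b | b ∈ B ∧ Q b}.ncard := by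
  rw [← Set.ncard_image_of_injective S Subtype.val_injective]
  congr 1
  ext b
  exact ⟨fun ⟨c, hc, e⟩ => e ▸ ⟨c.2, (h c).1 hc⟩, fun hb => ⟨⟨b, hb.1⟩, (h _).2 hb.2, rfl⟩⟩

theorem ncard_opt {α β : Type*} [Finite α] [Finite β] (S : Set (Option (α ⊕ β))) :
    S.ncard = {u : Unit | none ∈ S}.ncard + {a | some (Sum.inl a) ∈ S}.ncard
      + {b | some (Sum.inr b) ∈ S}.ncard := by
  rw [← Set.ncard_image_of_injective _ (f := fun _ : Unit => (none : Option (α ⊕ β)))
      fun _ _ _ => rfl,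
    ← Set.ncard_image_of_injective _ (f := fun a => (some (Sum.inl a) : Option (α ⊕ β)))
      fun _ _ h => by simpa using h,
    ← Set.ncard_image_of_injective _ (f := fun a => (some (Sum.inr a) : Option (α ⊕ β)))
      fun _ _ h => by simpa using h,
    ← Set.ncard_union_eq (by simp [Set.disjoint_left]),
    ← Set.ncard_union_eq (by rw [Set.disjoint_right]; rintro _ ⟨b, -, rfl⟩; simp)]
  congr 1
  ext (_ | _ | _) <;> simp

variable {α : Type*} [Fintype α] [DecidableEq α] {B : Set (Finset α)}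
  (hα : Fintype.card α = 22) (hB : IsSteinerSystem 3 6 B)
include hα hB

theorem s22_inter {b c : Finset α} (hb : b ∈ B) (hc : c ∈ B) (hbc : b ≠ c) :
    (b ∩ c).card = 0 ∨ (b ∩ c).card = 2 := by
  have h0 := card_inter_le_of_ne hB hb hc hbc
  have h1 := steiner_inter_ne hB (by norm_num) hα hb hc (i := 1) (by decide)
  omega

theorem s22_through {I : Finset α} {n : ℕ} (hI : I.card ≤ 3) (h : lam 3 6 22 I.card = n) :
    {b | b ∈ B ∧ I ⊆ b}.ncard = n := by
  have := nIJ_eq_lam hB (by norm_num) (Or.inl hI)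
  rw [hα, h, Nat.cast_inj] at this
  rw [ncard_eq_card_filter, ← this, nIJ]
  simp

theorem s22_card : B.ncard = 77 := by
  simpa using s22_through hα hB (I := ∅) (n := 77) (by simp) (by rw [card_empty]; decide)

theorem s22_disj {b : Finset α} (hb : b ∈ B) : {c | c ∈ B ∧ Disjoint b c}.ncard = 16 := by
  have := steiner_inter_eq hB (by norm_num) hα (Or.inr ⟨b, hb, subset_rfl⟩) (empty_subset _)
  rw [hB.1 b hb, card_empty, show tri (lam 3 6 22) (6 - 0) 0 = (16 : ℕ) by decide,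
    Nat.cast_inj] at this
  simpa only [disjoint_iff_inter_eq_empty]

theorem s22_pt_disj {a : α} {b : Finset α} (hb : b ∈ B) (ha : a ∉ b) :
    {c | c ∈ B ∧ a ∈ c ∧ Disjoint b c}.ncard = 6 := by
  have h0 := steiner_moment hB (by norm_num) hα {a} b (by simpa) 0 (by simp)
  have h1 := steiner_moment hB (by norm_num) hα {a} b (by simpa) 1 (by simp)
  rw [hB.1 b hb, card_singleton, show ((Nat.choose 6 0 : ℕ) : ℤ) * lam 3 6 22 (1 + 0) = (21 : ℕ) by
    decide, Nat.cast_inj] at h0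
  rw [hB.1 b hb, card_singleton, show ((Nat.choose 6 1 : ℕ) : ℤ) * lam 3 6 22 (1 + 1) = (30 : ℕ) by
    decide, Nat.cast_inj] at h1
  have h2 : ∑ c ∈ (blk B).filter ({a} ⊆ ·), ((c ∩ b).card.choose 1 + 2 * if Disjoint b c then 1 else 0)
      = ∑ c ∈ (blk B).filter ({a} ⊆ ·), 2 * (c ∩ b).card.choose 0 := sum_congr rfl fun c hc => by
    rw [mem_filter, mem_blk, singleton_subset_iff] at hc
    simp only [disjoint_iff_inter_eq_empty, inter_comm b, ← card_eq_zero]
    rcases s22_inter hα hB hc.1 hb (fun e => ha (e ▸ hc.2)) with h | h <;> simp [h]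
  rw [sum_add_distrib, ← mul_sum, ← mul_sum, h0, h1, ← card_filter, filter_filter] at h2
  rw [ncard_eq_card_filter]
  simp only [singleton_subset_iff] at h2
  omega

theorem s22_disj2 {b c : Finset α} (hb : b ∈ B) (hc : c ∈ B) (hbc : b ≠ c) :
    {x | x ∈ B ∧ Disjoint b x ∧ Disjoint c x}.ncard = 2 * (b ∩ c).card := by
  have h0 := steiner_moment' hB (by norm_num) hα (b ∪ c) 0 (by simp)
  have h1 := steiner_moment' hB (by norm_num) hα (b ∪ c) 1 (by simp)
  have h2 := steiner_moment' hB (by norm_num) hα (b ∪ c) 2 (by simp)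
  have h3 := steiner_moment' hB (by norm_num) hα (b ∪ c) 3 (by simp)
  have h4 : ∑ x ∈ blk B, (6 * (x ∩ (b ∪ c)).card.choose 3 + 18 * (x ∩ (b ∪ c)).card.choose 1
      + 24 * if Disjoint b x ∧ Disjoint c x then 1 else 0) = ∑ x ∈ blk B,
      (12 * (x ∩ (b ∪ c)).card.choose 2 + 24 * (x ∩ (b ∪ c)).card.choose 0
      + 24 * ((if x = b then 1 else 0) + if x = c then 1 else 0)) := sum_congr rfl fun x hx => by
    rw [mem_blk] at hx
    have h5 : ∀ y ∈ B, ¬ Disjoint y y := fun y hy h => by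
      have := hB.1 y hy
      rw [disjoint_self_iff_empty] at h
      simp [h] at this
    by_cases e : x = b
    · subst e
      rw [inter_eq_left.2 subset_union_left, hB.1 x hx, if_neg fun h => h5 x hx h.1, if_pos rfl,
        if_neg hbc]
      rfl
    by_cases e' : x = c
    · subst e'
      rw [inter_eq_left.2 subset_union_right, hB.1 x hx, if_neg fun h => h5 x hx h.2, if_pos rfl,
        if_neg e]
      rfl
    have h6 := card_union_add_card_inter (x ∩ b) (x ∩ c)
    have h7 := card_le_card (inter_subset_left (s₁ := x ∩ b) (s₂ := x ∩ c))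
    have h8 := card_le_card (inter_subset_right (s₁ := x ∩ b) (s₂ := x ∩ c))
    simp only [disjoint_iff_inter_eq_empty, inter_comm _ x, ← card_eq_zero, inter_union_distrib_left,
      e, e', if_false]
    rcases s22_inter hα hB hx hb e with h | h <;> rcases s22_inter hα hB hx hc e' with h' | h' <;>
      rw [h, h'] at h6 ⊢
    · rw [show (x ∩ b ∪ x ∩ c).card = 0 by omega]; rfl
    · rw [show (x ∩ b ∪ x ∩ c).card = 2 by omega]; rfl
    · rw [show (x ∩ b ∪ x ∩ c).card = 2 by omega]; rfl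
    · obtain h9 | h9 | h9 : (x ∩ b ∪ x ∩ c).card = 2 ∨ (x ∩ b ∪ x ∩ c).card = 3 ∨
        (x ∩ b ∪ x ∩ c).card = 4 := by omega
      all_goals rw [h9]; rfl
  simp only [sum_add_distrib, ← mul_sum, sum_ite_eq', mem_blk, hb, hc, if_true] at h4
  rw [← card_filter] at h4
  rw [ncard_eq_card_filter]
  have h5 := card_union_add_card_inter b c
  rw [hB.1 b hb, hB.1 c hc] at h5
  have h6 : lam 3 6 22 0 = 77 ∧ lam 3 6 22 1 = 21 ∧ lam 3 6 22 2 = 5 ∧ lam 3 6 22 3 = 1 := by decide
  rw [h6.1] at h0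
  rw [h6.2.1] at h1
  rw [h6.2.2.1] at h2
  rw [h6.2.2.2] at h3
  generalize ∑ x ∈ blk B, (x ∩ (b ∪ c)).card.choose 0 = m0 at h0 h4
  generalize ∑ x ∈ blk B, (x ∩ (b ∪ c)).card.choose 1 = m1 at h1 h4
  generalize ∑ x ∈ blk B, (x ∩ (b ∪ c)).card.choose 2 = m2 at h2 h4
  generalize ∑ x ∈ blk B, (x ∩ (b ∪ c)).card.choose 3 = m3 at h3 h4
  rcases s22_inter hα hB hb hc hbc with h | h
  · rw [show (b ∪ c).card = 12 by omega] at h0 h1 h2 h3
    norm_num [Nat.choose] at h0 h1 h2 h3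
    omega
  · rw [show (b ∪ c).card = 10 by omega] at h0 h1 h2 h3
    norm_num [Nat.choose] at h0 h1 h2 h3
    omega

omit hα in
theorem s22_disj_iff (b c : B) : b ≠ c ∧ (Disjoint b.1 c.1 ∨ Disjoint c.1 b.1) ↔ Disjoint b.1 c.1 := by
  refine ⟨fun h => h.2.elim id fun h => h.symm, fun h => ⟨?_, Or.inl h⟩⟩
  rintro rfl
  have := hB.1 b b.2
  rw [disjoint_self_iff_empty] at h
  simp [h] at this

end Cfsg.Agent.Golay
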