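import Mathlib
import Cfsg.Agent.Golay.SexOrb

/-!
Orbits of the trio stabiliser.
-/

namespace Cfsg.Agent.Golay

open MulAction Finset
open scoped Pointwise

theorem orbDec_trio_trio {T : Finset (Finset GolayPt)} (hT : T ∈ trios) :
    OrbDec (St M24 T) (trios \ {T}) [42, 56, 1008, 2688] :=
  OrbDec.smul (S := fun x => trios \ {x}) (sdiff_single_smul fun _ hg _ => smul_mem_trios hg)
    (orbDec_fc 3 (fun _ h => h.1.1) (fun g hg y hy => by
        simpa only [show g • trio0 = trio0 from hg.2] using
          sdiff_single_smul (fun _ hg _ => smul_mem_trios hg) g hg.1 _ _ hy) gen_Trio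
      [(2363870615631978513060, 42), (2363870591683577842320, 56), (2362080938057826935040, 1008),
        (2362080943076328149130, 2688)] 3000
      (fun r hr => by
        have : TrioOk r.1 ∧ r.1 ≠ cTrio := by revert r; decide +kernel
        exact ⟨this.1.1, this.1.mem, this.1.1.ne cTrio_ok this.2⟩)
      (by decide +kernel) (by decide)
      (by rw [Set.ncard_sdiff_singleton_of_mem trio0_mem, ncard_trios]; rfl))
    (trio_trans trio0_mem hT)

theorem isCoatom_trio {T : Finset (Finset GolayPt)} (hT : T ∈ trios) :
    IsCoatom (stabilizer M24 T) :=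
  isCoatom_of_orbDec (fun _ hg => smul_mem_trios hg hT) (fun _ hy => trio_trans hT hy)
    (orbDec_trio_trio hT) ncard_trios (by norm_num) (by decide)

theorem orbDec_trio_oct {T : Finset (Finset GolayPt)} (hT : T ∈ trios) :
    OrbDec (St M24 T) octads [3, 84, 672] :=
  OrbDec.smul (S := fun _ => octads) (fun _ hg _ _ => smul_mem_octads hg)
    (orbDec_mk (fun _ hg _ => smul_mem_octads (mem_St.1 hg).1) gen_Trio
      [(337856, 3), (18147, 84), (5279, 672)] 700 (by decide +kernel) (by decide +kernel)
      (by decide) ncard_octads) (trio_trans trio0_mem hT)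

theorem orbDec_trio_sex {T : Finset (Finset GolayPt)} (hT : T ∈ trios) :
    OrbDec (St M24 T) sextets [7, 84, 336, 1344] :=
  OrbDec.smul (S := fun _ => sextets) (fun _ hg _ _ => smul_mem_sextets hg)
    (orbDec_fc 6 (fun _ h => h.1) (fun _ hg _ => smul_mem_sextets (mem_St.1 hg).1) gen_Trio
      [(11150387722154438044499046504969320890639680, 7),
        (11150382242010895008167239022564679587348520, 84),
        (11150629473875485075723370041517163401125920, 336),
        (11150398192745892532567903276847130220724640, 1344)] 1500
      (fun r hr => by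
        have : SexOk r.1 := by revert r; decide +kernel
        exact ⟨this.1, this.mem⟩)
      (by decide +kernel) (by decide) ncard_sextets) (trio_trans trio0_mem hT)

end Cfsg.Agent.Golay
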